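import Cfsg.Agent.Helper16.Fong
import Cfsg.Agent.Helper16.ExtFMT
import Cfsg.Agent.Helper16.FMT
import Cfsg.Agent.Helper16.HeightZero
import Cfsg.Agent.Helper16.ClassSum
import Cfsg.Agent.Helper75.BlockTransport
import Cfsg.Agent.Helper79.FongReynolds5
import Cfsg.Agent.S0963

/-!
# The extended first main theorem: the inertial index criterion

Let `P` be a `p`-subgroup, `H = P C_G(P)` (or any `H` with `P C_G(P) ≤ H ⊴ N_G(P)`), `b` a block
of `H` with defect group `P`, and `T` the stabilizer of `b` in `N_G(P)`.  If `p ∤ |T : H|` then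
`b^G` has defect group `P`.
-/

set_option autoImplicit false
set_option linter.unusedSectionVars false
set_option linter.unusedVariables false
set_option linter.style.longLine false
set_option linter.unnecessarySimpa false
set_option linter.style.multiGoal false
set_option linter.flexible false

namespace Cfsg.Agent.Helper16

universe u

section extfmt2

variable {G : Type u} [Group G] [Fintype G] {p : ℕ} [Fact p.Prime] {M : Ideal Cfsg.AlgInt}

/-- A block covering the invariant block `b` has defect at most `d(b) + ν_p |G : N|`. -/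
theorem extfmt2_cover_defect_le (N : Subgroup G) [hN : N.Normal] [Fintype N]
    {b : Set (Cfsg.IrrCharacter N)} (hM : Cfsg.IsPModular p M) (hb : Cfsg.IsPBlock M b)
    (hinv : ∀ g : G, ∀ θ ∈ b, irrConj N g θ ∈ b) {B' : Set (Cfsg.IrrCharacter G)}
    (hB' : Cfsg.IsPBlock M B')
    (hcov : ∃ χ ∈ B', ∃ θ ∈ b, Cfsg.classInner (fun n : N => (χ : G → ℂ) n) (θ : N → ℂ) ≠ 0) :
    Cfsg.blockDefect p B' ≤ Cfsg.blockDefect p b + N.index.factorization p := by
  classical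
  have hp : p.Prime := Fact.out
  obtain ⟨P', hP'⟩ := exists_isDefectGroup (p := p) hM.2.1 hB'
  obtain ⟨χ, hχ, θ, hθb, hθ⟩ := hcov
  obtain ⟨x, hx, hPx⟩ := fong_exists_defectClass_centralizer N hM hb hinv hB' χ hχ θ hθb hθ hP'
  obtain ⟨-, -, -, -, hPp⟩ := isDefectGroup_exists_data hP'
  obtain ⟨i, j, hi, hile, hj, hjle, hij⟩ := fong_card_pSubgroup N hPp x hPx
  have hcardP := Helper77.card_of_isDefectGroup hM hB' hP'
  have hdB : Cfsg.blockDefect p B' = i + j := by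
    rw [hcardP] at hij
    exact Nat.pow_right_injective hp.two_le hij
  have hfac := factorization_centralizer_of_isDefectClass hM hb hx
  omega

/-- If `p ∤ |G : N|` and `b` is a `G`-invariant block of `N`, some block of `G` covering `b` has
a defect group contained in `N` which is a defect group of `b`. -/
theorem extfmt2_cover_of_not_dvd (N : Subgroup G) [hN : N.Normal] [Fintype N]
    {b : Set (Cfsg.IrrCharacter N)} (hM : Cfsg.IsPModular p M) (hb : Cfsg.IsPBlock M b)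
    (hinv : ∀ g : G, ∀ θ ∈ b, irrConj N g θ ∈ b) (hnd : ¬ p ∣ N.index) :
    ∃ B : Set (Cfsg.IrrCharacter G), Cfsg.IsPBlock M B ∧
      (∃ χ ∈ B, ∃ θ ∈ b, Cfsg.classInner (fun n : N => (χ : G → ℂ) n) (θ : N → ℂ) ≠ 0) ∧
      ∃ D : Subgroup G, Cfsg.IsDefectGroup p M B D ∧ D ≤ N ∧
        Cfsg.IsDefectGroup p M b (D.subgroupOf N) := by
  classical
  have hp : p.Prime := Fact.out
  have hMm := hM.2.1
  obtain ⟨B, hB, hcov, hge⟩ := fong_exists_cover_defect_ge N hM hb hinv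
  have hmax : ∀ B' : Set (Cfsg.IrrCharacter G), Cfsg.IsPBlock M B' →
      (∃ χ ∈ B', ∃ θ ∈ b, Cfsg.classInner (fun n : N => (χ : G → ℂ) n) (θ : N → ℂ) ≠ 0) →
      Cfsg.blockDefect p B' ≤ Cfsg.blockDefect p B := by
    intro B' hB' hcov'
    have := extfmt2_cover_defect_le N hM hb hinv hB' hcov'
    omega
  obtain ⟨D, hD⟩ := exists_isDefectGroup (p := p) hMm hB
  obtain ⟨-, hDb, hdef⟩ := fong_main N hM hb hinv hB hcov hmax hD
  have h0 : N.index.factorization p = 0 := Nat.factorization_eq_zero_of_not_dvd hnd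
  have hc1 := Helper77.card_of_isDefectGroup hM hB hD
  have hc2 := Helper77.card_of_isDefectGroup hM hb hDb
  have hc3 : Nat.card ((D ⊓ N : Subgroup G).subgroupOf N) = Nat.card (D ⊓ N : Subgroup G) :=
    Nat.card_congr (Subgroup.subgroupOfEquivOfLe (inf_le_right : D ⊓ N ≤ N)).toEquiv
  have hDN : D ⊓ N = D := by
    apply Subgroup.eq_of_le_of_card_ge inf_le_left
    rw [← hc3, hc2, hc1, hdef, h0, add_zero]
  have hle : D ≤ N := by rw [← hDN]; exact inf_le_right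
  refine ⟨B, hB, hcov, D, hD, hle, ?_⟩
  rw [← Subgroup.inf_subgroupOf_right]
  exact hDb

/-- **Fong + Fong–Reynolds.**  Let `b` be a block of the normal subgroup `N` of `G` with
stabilizer `T`.  If `p ∤ |T : N|`, then some block of `G` covering `b` has a defect group which
is a defect group of `b`. -/
theorem extfmt2_exists_block (N : Subgroup G) [hN : N.Normal] [Fintype N]
    {b : Set (Cfsg.IrrCharacter N)} (hM : Cfsg.IsPModular p M) (hb : Cfsg.IsPBlock M b)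
    (T : Subgroup G) (hNT : N ≤ T)
    (hst : ∀ t ∈ T, ∀ θ ∈ b, irrConj N t θ ∈ b)
    (hdis : ∀ x : G, x ∉ T → ∀ θ ∈ b, irrConj N x θ ∉ b)
    (hnd : ¬ p ∣ N.relIndex T) :
    ∃ B : Set (Cfsg.IrrCharacter G), Cfsg.IsPBlock M B ∧
      (∃ χ ∈ B, ∃ θ ∈ b, Cfsg.classInner (fun n : N => (χ : G → ℂ) n) (θ : N → ℂ) ≠ 0) ∧
      ∃ D : Subgroup N, Cfsg.IsDefectGroup p M b D ∧
        Cfsg.IsDefectGroup p M B (D.map N.subtype) := by
  classical
  have : Fintype T := Fintype.ofFinite T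
  have : Fintype (N.subgroupOf T) := Fintype.ofFinite _
  have hMm := hM.2.1
  obtain ⟨σ, hσ⟩ : ∃ σ : N.subgroupOf T ≃* N, σ = Subgroup.subgroupOfEquivOfLe hNT := ⟨_, rfl⟩
  have hσcoe : ∀ k : N.subgroupOf T, ((σ k : N) : G) = ((k : T) : G) := by
    intro k; rw [hσ]; rfl
  have hb₁ : Cfsg.IsPBlock M (Helper75.irrComp σ '' b) := Helper75.isPBlock_image_irrComp σ hb
  have hinv₁ : ∀ g : T, ∀ θ₁ ∈ Helper75.irrComp σ '' b,
      irrConj (N.subgroupOf T) g θ₁ ∈ Helper75.irrComp σ '' b := by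
    rintro g _ ⟨θ, hθ, rfl⟩
    refine ⟨irrConj N (g : G) θ, hst g g.2 θ hθ, ?_⟩
    apply Subtype.ext
    funext k
    rw [Helper75.irrComp_apply, irrConj_apply, irrConj_apply, Helper75.irrComp_apply]
    refine congrArg (θ : N → ℂ) (Subtype.ext ?_)
    refine ((hσcoe _).trans ?_).symm
    show ((g⁻¹ * (k : T) * g : T) : G) = (g : G)⁻¹ * ((σ k : N) : G) * (g : G)
    rw [hσcoe k]
    rfl
  obtain ⟨B₁, hB₁, ⟨χ₁, hχ₁, θ₁, hθ₁, hne₁⟩, D₁, hD₁, hD₁N, hD₁b⟩ :=
    extfmt2_cover_of_not_dvd (N.subgroupOf T) hM hb₁ hinv₁ hnd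
  obtain ⟨θ, hθ, rfl⟩ := hθ₁
  have hcov : χ₁ ∈ Helper79.frCov N T hNT b := by
    refine ⟨θ, hθ, ?_⟩
    have e : Cfsg.classInner (fun n : N => (χ₁ : T → ℂ) ⟨(n : G), hNT n.2⟩) (θ : N → ℂ)
        = Cfsg.classInner (fun n : N.subgroupOf T => (χ₁ : T → ℂ) n)
          (Helper75.irrComp σ θ : N.subgroupOf T → ℂ) := by
      unfold Cfsg.classInner
      rw [Nat.card_congr σ.toEquiv]
      congr 1
      rw [← Equiv.sum_comp σ.toEquiv]
      refine Finset.sum_congr rfl fun k _ => ?_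
      show (χ₁ : T → ℂ) ⟨((σ k : N) : G), _⟩ * _ = (χ₁ : T → ℂ) (k : T) * _
      have e0 : (⟨((σ k : N) : G), hNT (σ k).2⟩ : T) = (k : T) := Subtype.ext (hσcoe k)
      rw [e0]
      rfl
    rw [e]
    exact hne₁
  obtain ⟨hind, hcovG, -, -, -⟩ := Helper79.fr_main N T hMm hb hNT hst hdis hB₁ hχ₁ hcov
  have hdh := (Helper79.fr_defect_height N T hM hb hNT hst hdis hB₁ hχ₁ hcov hind).1 D₁ hD₁
  refine ⟨_, hind.2.1, hcovG, (D₁.subgroupOf (N.subgroupOf T)).comap σ.symm.toMonoidHom, ?_, ?_⟩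
  · have h1 := Helper75.isDefectGroup_image_irrComp σ.symm hD₁b
    rwa [Helper75.image_irrComp_symm_image] at h1
  · have e : ((D₁.subgroupOf (N.subgroupOf T)).comap σ.symm.toMonoidHom).map N.subtype
        = D₁.map T.subtype := by
      ext x
      constructor
      · rintro ⟨n, hn, rfl⟩
        rw [SetLike.mem_coe, Subgroup.mem_comap, Subgroup.mem_subgroupOf] at hn
        refine ⟨_, hn, ?_⟩
        have h2 := hσcoe (σ.symm n)
        rw [MulEquiv.apply_symm_apply] at h2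
        exact h2.symm
      · rintro ⟨t, ht, rfl⟩
        refine ⟨σ ⟨t, hD₁N ht⟩, ?_, hσcoe _⟩
        rw [SetLike.mem_coe, Subgroup.mem_comap, Subgroup.mem_subgroupOf]
        show ((σ.symm (σ ⟨t, hD₁N ht⟩) : N.subgroupOf T) : T) ∈ D₁
        rw [MulEquiv.symm_apply_apply]
        exact ht
    rw [e]
    exact hdh

/-- Let `Q` be a normal `p`-subgroup of `G` and `N` a normal subgroup containing `C_G(Q)`.  Every
block of `G` covering the block `b` of `N` is induced by `b`. -/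
theorem extfmt2_induced_of_cover (hM : Cfsg.IsPModular p M) (Q : Subgroup G) [Q.Normal]
    (hQ : IsPGroup p Q) (N : Subgroup G) [hN : N.Normal] [Fintype N]
    (hCN : Subgroup.centralizer (Q : Set G) ≤ N) {b : Set (Cfsg.IrrCharacter N)}
    (hb : Cfsg.IsPBlock M b) {B : Set (Cfsg.IrrCharacter G)} (hB : Cfsg.IsPBlock M B)
    (hcov : ∃ χ ∈ B, ∃ θ ∈ b, Cfsg.classInner (fun n : N => (χ : G → ℂ) n) (θ : N → ℂ) ≠ 0) :
    Cfsg.IsInducedBlock M N b B := by
  classical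
  have hMm := hM.2.1
  obtain ⟨χ, hχ, θ, hθ, hne⟩ := hcov
  refine ⟨hb, hB, fun ξ hξ χ' hχ' g => ?_⟩
  have h1 := inducedCentralChar_sub_mem hMm N (ξ : N → ℂ) (θ : N → ℂ)
    (Helper81.irr_isClassFunction ξ) (Helper81.irr_isClassFunction θ)
    (sameBlock_of_mem hMm hb hξ hθ) g
  have h2 := sameBlock_of_mem hMm hB hχ hχ' g
  have h3 : Cfsg.MemLocalIdeal M (Cfsg.inducedCentralChar N (θ : N → ℂ) g
      - Cfsg.centralChar (χ : G → ℂ) g) := by
    by_cases hg : g ∈ N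
    · have h4 := (Cfsg.Agent.S0963.result N χ θ).mp hne ⟨g, hg⟩
      rw [← h4, sub_self]
      exact Helper77.memLocalIdeal_zero hMm
    · have hgC : g ∉ Subgroup.centralizer (Q : Set G) := fun h => hg (hCN h)
      have h4 := centralChar_memLocalIdeal_of_not_mem_centralizer hM Q hQ χ g hgC
      have h5 : Cfsg.inducedCentralChar N (θ : N → ℂ) g = 0 := by
        unfold Cfsg.inducedCentralChar
        apply finsum_mem_eq_zero_of_forall_eq_zero
        intro h hh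
        exfalso
        have hh' : IsConj g (h : G) := hh
        obtain ⟨c, hc⟩ := isConj_iff.mp hh'
        apply hg
        have h6 : g = c⁻¹ * (h : G) * c⁻¹⁻¹ := by rw [← hc]; group
        rw [h6]
        exact hN.conj_mem _ h.2 _
      rw [h5, zero_sub]
      exact Helper77.memLocalIdeal_neg h4
  have h4 := Helper77.memLocalIdeal_add hMm (Helper77.memLocalIdeal_add hMm h1 h3) h2
  have e : Cfsg.inducedCentralChar N (ξ : N → ℂ) g - Cfsg.inducedCentralChar N (θ : N → ℂ) g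
      + (Cfsg.inducedCentralChar N (θ : N → ℂ) g - Cfsg.centralChar (χ : G → ℂ) g)
      + (Cfsg.centralChar (χ : G → ℂ) g - Cfsg.centralChar (χ' : G → ℂ) g)
      = Cfsg.inducedCentralChar N (ξ : N → ℂ) g - Cfsg.centralChar (χ' : G → ℂ) g := by ring
  rwa [e] at h4

theorem extfmt2_defectGroup_aux (hM : Cfsg.IsPModular p M) {P H T 𝒩 : Subgroup G}
    (h𝒩 : 𝒩 = Subgroup.normalizer (P : Set G))
    [Fintype H] (hPp : IsPGroup p P) (hPH : P ≤ H)
    (hCH : Subgroup.centralizer (P : Set G) ≤ H)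
    (hHN : H ≤ 𝒩)
    (hNH : 𝒩 ≤ Subgroup.normalizer (H : Set G))
    {b : Set (Cfsg.IrrCharacter H)} (hbP : Cfsg.IsDefectGroup p M b (P.subgroupOf H))
    {B : Set (Cfsg.IrrCharacter G)} (hind : Cfsg.IsInducedBlock M H b B)
    (hHT : H ≤ T) (hTN : T ≤ 𝒩)
    (hst : ∀ t (ht : t ∈ T), ∀ θ ∈ b,
      Helper75.irrComp (Helper75.conjEquivOfNormalizer H t (hNH (hTN ht))) θ ∈ b)
    (hdis : ∀ x (hx : x ∈ 𝒩), x ∉ T → ∀ θ ∈ b,
      Helper75.irrComp (Helper75.conjEquivOfNormalizer H x (hNH hx)) θ ∉ b)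
    (hnd : ¬ p ∣ H.relIndex T) : Cfsg.IsDefectGroup p M B P := by
  classical
  have hMm := hM.2.1
  have hb := hind.1
  have : Fintype 𝒩 := Fintype.ofFinite 𝒩
  have : Fintype (H.subgroupOf 𝒩) := Fintype.ofFinite _
  have hP𝒩 : P ≤ 𝒩 := by rw [h𝒩]; exact Subgroup.le_normalizer
  have hN₀n : (H.subgroupOf 𝒩).Normal := Subgroup.normal_subgroupOf_of_le_normalizer hNH
  have hQn : (P.subgroupOf 𝒩).Normal :=
    Subgroup.normal_subgroupOf_of_le_normalizer (by rw [h𝒩])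
  have hQp : IsPGroup p (P.subgroupOf 𝒩) := hPp.comap_subtype
  obtain ⟨τ, hτ⟩ : ∃ τ : H.subgroupOf 𝒩 ≃* H, τ = Subgroup.subgroupOfEquivOfLe hHN := ⟨_, rfl⟩
  have hτcoe : ∀ k : H.subgroupOf 𝒩, ((τ k : H) : G) = ((k : 𝒩) : G) := by
    intro k; rw [hτ]; rfl
  have hb₀ : Cfsg.IsPBlock M (Helper75.irrComp τ '' b) := Helper75.isPBlock_image_irrComp τ hb
  have hN₀T₀ : H.subgroupOf 𝒩 ≤ T.subgroupOf 𝒩 := fun k hk => hHT hk
  have hconj : ∀ (x : 𝒩) (θ : Cfsg.IrrCharacter H),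
      irrConj (H.subgroupOf 𝒩) x (Helper75.irrComp τ θ)
        = Helper75.irrComp τ
          (Helper75.irrComp (Helper75.conjEquivOfNormalizer H (x : G) (hNH x.2)) θ) := by
    intro x θ
    apply Subtype.ext
    funext k
    rw [irrConj_apply, Helper75.irrComp_apply, Helper75.irrComp_apply, Helper75.irrComp_apply]
    refine congrArg (θ : H → ℂ) (Subtype.ext ?_)
    refine (hτcoe _).trans ?_
    show ((x⁻¹ * (k : 𝒩) * x : 𝒩) : G) = (x : G)⁻¹ * ((τ k : H) : G) * (x : G)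
    rw [hτcoe k]
    rfl
  have hst₀ : ∀ t ∈ T.subgroupOf 𝒩, ∀ θ₀ ∈ Helper75.irrComp τ '' b,
      irrConj (H.subgroupOf 𝒩) t θ₀ ∈ Helper75.irrComp τ '' b := by
    rintro t ht _ ⟨θ, hθ, rfl⟩
    rw [hconj]
    exact ⟨_, hst (t : G) ht θ hθ, rfl⟩
  have hdis₀ : ∀ x : 𝒩, x ∉ T.subgroupOf 𝒩 → ∀ θ₀ ∈ Helper75.irrComp τ '' b,
      irrConj (H.subgroupOf 𝒩) x θ₀ ∉ Helper75.irrComp τ '' b := by
    rintro x hx _ ⟨θ, hθ, rfl⟩ hcon
    rw [hconj] at hcon
    obtain ⟨θ', hθ', he⟩ := hcon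
    have he' := Helper75.irrComp_injective τ he
    rw [he'] at hθ'
    exact hdis (x : G) x.2 hx θ hθ hθ'
  have hnd₀ : ¬ p ∣ (H.subgroupOf 𝒩).relIndex (T.subgroupOf 𝒩) := by
    rw [Subgroup.relIndex_subgroupOf hTN]
    exact hnd
  obtain ⟨B₀, hB₀, hcov₀, D, hDb₀, hDB₀⟩ := extfmt2_exists_block (H.subgroupOf 𝒩) hM hb₀
    (T.subgroupOf 𝒩) hN₀T₀ hst₀ hdis₀ hnd₀
  have hP₀ := Helper75.isDefectGroup_image_irrComp τ hbP
  have hPHn : (P.subgroupOf H).Normal := Subgroup.normal_subgroupOf_of_le_normalizer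
    (by rw [← h𝒩]; exact hHN)
  have hP₀n : ((P.subgroupOf H).comap τ.toMonoidHom).Normal := hPHn.comap _
  have hP₀p : IsPGroup p ((P.subgroupOf H).comap τ.toMonoidHom) :=
    (hPp.comap_subtype).comap_of_injective τ.toMonoidHom τ.injective
  have hle := normal_pSubgroup_le_defectGroup hM _ hP₀p hb₀ hDb₀
  have hDeq : (P.subgroupOf H).comap τ.toMonoidHom = D :=
    Subgroup.eq_of_le_of_card_ge hle (by rw [isDefectGroup_card_eq hM hb₀ hDb₀ hP₀])
  have hmap : D.map (H.subgroupOf 𝒩).subtype = P.subgroupOf 𝒩 := by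
    rw [← hDeq]
    ext x
    constructor
    · rintro ⟨n, hn, rfl⟩
      rw [SetLike.mem_coe, Subgroup.mem_comap, Subgroup.mem_subgroupOf] at hn
      rw [Subgroup.mem_subgroupOf]
      have h1 := hτcoe n
      show ((n : 𝒩) : G) ∈ P
      rw [← h1]
      exact hn
    · intro hx
      rw [Subgroup.mem_subgroupOf] at hx
      refine ⟨⟨x, hPH hx⟩, ?_, rfl⟩
      rw [SetLike.mem_coe, Subgroup.mem_comap, Subgroup.mem_subgroupOf]
      show ((τ ⟨x, hPH hx⟩ : H) : G) ∈ P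
      rw [hτcoe]
      exact hx
  rw [hmap] at hDB₀
  have hCN₀ : Subgroup.centralizer ((P.subgroupOf 𝒩 : Subgroup 𝒩) : Set 𝒩) ≤ H.subgroupOf 𝒩 := by
    intro c hc
    rw [Subgroup.mem_subgroupOf]
    apply hCH
    rw [Subgroup.mem_centralizer_iff]
    intro q hq
    have h1 := Subgroup.mem_centralizer_iff.mp hc ⟨q, hP𝒩 hq⟩
      (by rw [SetLike.mem_coe, Subgroup.mem_subgroupOf]; exact hq)
    exact congrArg (fun k : 𝒩 => (k : G)) h1
  have hind₀ := extfmt2_induced_of_cover hM (P.subgroupOf 𝒩) hQp (H.subgroupOf 𝒩) hCN₀ hb₀ hB₀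
    hcov₀
  subst hτ
  subst h𝒩
  obtain ⟨Bs, hinds⟩ := exists_isInducedBlock hM P (Subgroup.normalizer (P : Set G)) hPp
    Subgroup.le_normalizer (Subgroup.centralizer_le_normalizer _) le_rfl hB₀
  have hdefs := fmt_defectGroup hM P hPp hinds hDB₀
  obtain ⟨ξ, hξ⟩ := exists_mem_of_isPBlock hMm hb
  obtain ⟨ξ₀, hξ₀⟩ := exists_mem_of_isPBlock hMm hB₀
  obtain ⟨χ, hχ⟩ := exists_mem_of_isPBlock hMm hind.2.1
  obtain ⟨χs, hχs⟩ := exists_mem_of_isPBlock hMm hinds.2.1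
  have hsame : Cfsg.SameBlock M (χ : G → ℂ) (χs : G → ℂ) := by
    intro g
    have h1 := inducedCentralChar_trans hMm hHN (ξ : H → ℂ) ξ₀
      (fun n => hind₀.2.2 (Helper75.irrComp (Subgroup.subgroupOfEquivOfLe hHN) ξ) ⟨ξ, hξ, rfl⟩
        ξ₀ hξ₀ n) g
    have h2 := hinds.2.2 ξ₀ hξ₀ χs hχs g
    have h3 := hind.2.2 ξ hξ χ hχ g
    have h4 := Helper77.memLocalIdeal_sub hMm (Helper77.memLocalIdeal_add hMm h1 h2) h3
    have e : Cfsg.inducedCentralChar H (ξ : H → ℂ) g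
          - Cfsg.inducedCentralChar (Subgroup.normalizer (P : Set G))
            (ξ₀ : Subgroup.normalizer (P : Set G) → ℂ) g
        + (Cfsg.inducedCentralChar (Subgroup.normalizer (P : Set G))
            (ξ₀ : Subgroup.normalizer (P : Set G) → ℂ) g - Cfsg.centralChar (χs : G → ℂ) g)
        - (Cfsg.inducedCentralChar H (ξ : H → ℂ) g - Cfsg.centralChar (χ : G → ℂ) g)
        = Cfsg.centralChar (χ : G → ℂ) g - Cfsg.centralChar (χs : G → ℂ) g := by ring
    rwa [e] at h4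
  have hBeq : B = Bs := by
    rw [eq_blockOf_of_mem hMm hind.2.1 hχ, eq_blockOf_of_mem hMm hinds.2.1 hχs]
    exact (blockOf_eq_of_mem hMm hsame).symm
  rw [hBeq]
  exact hdefs

/-- **Extended first main theorem, the inertial index criterion.**  Let `P` be a `p`-subgroup,
`P C_G(P) ≤ H ≤ N_G(P)` with `H` normalized by `N_G(P)`, `b` a block of `H` with defect group `P`
inducing the block `B` of `G`, and `T` the stabilizer of `b` in `N_G(P)`.  If `p ∤ |T : H|`, then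
`B` has defect group `P`. -/
theorem extfmt2_defectGroup_of_not_dvd (hM : Cfsg.IsPModular p M) {P H T : Subgroup G}
    [Fintype H] (hPp : IsPGroup p P) (hPH : P ≤ H)
    (hCH : Subgroup.centralizer (P : Set G) ≤ H)
    (hHN : H ≤ Subgroup.normalizer (P : Set G))
    (hNH : Subgroup.normalizer (P : Set G) ≤ Subgroup.normalizer (H : Set G))
    {b : Set (Cfsg.IrrCharacter H)} (hbP : Cfsg.IsDefectGroup p M b (P.subgroupOf H))
    {B : Set (Cfsg.IrrCharacter G)} (hind : Cfsg.IsInducedBlock M H b B)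
    (hHT : H ≤ T) (hTN : T ≤ Subgroup.normalizer (P : Set G))
    (hst : ∀ t (ht : t ∈ T), ∀ θ ∈ b,
      Helper75.irrComp (Helper75.conjEquivOfNormalizer H t (hNH (hTN ht))) θ ∈ b)
    (hdis : ∀ x (hx : x ∈ Subgroup.normalizer (P : Set G)), x ∉ T → ∀ θ ∈ b,
      Helper75.irrComp (Helper75.conjEquivOfNormalizer H x (hNH hx)) θ ∉ b)
    (hnd : ¬ p ∣ H.relIndex T) : Cfsg.IsDefectGroup p M B P :=
  extfmt2_defectGroup_aux hM rfl hPp hPH hCH hHN hNH hbP hind hHT hTN hst hdis hnd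

end extfmt2

end Cfsg.Agent.Helper16
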