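import Mathlib.GroupTheory.Sylow
import Mathlib.GroupTheory.Subgroup.Centralizer
import Mathlib.GroupTheory.Index
import Mathlib.Data.ZMod.Basic
import Mathlib.Data.Finite.Perm
import Mathlib.GroupTheory.OrderOfElement

set_option autoImplicit false

namespace Cfsg.Agent.Helper16

theorem zmod_half_add_half {m : ℕ} (hm : 1 ≤ m) :
    (((2 ^ (m - 1) : ℕ) : ZMod (2 ^ m)) + ((2 ^ (m - 1) : ℕ) : ZMod (2 ^ m))) = 0 := by
  rw [← Nat.cast_add, ← two_mul, ← pow_succ', Nat.sub_add_cancel hm]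
  exact ZMod.natCast_self (2 ^ m)

theorem zmod_half_ne_zero {m : ℕ} (hm : 1 ≤ m) : ((2 ^ (m - 1) : ℕ) : ZMod (2 ^ m)) ≠ 0 := by
  intro h
  rw [ZMod.natCast_eq_zero_iff] at h
  have h1 := Nat.le_of_dvd (by positivity) h
  have h2 : 2 ^ (m - 1) < 2 ^ m := Nat.pow_lt_pow_right (by norm_num) (by omega)
  omega

theorem zmod_two_torsion {m : ℕ} (hm : 1 ≤ m) (a : ZMod (2 ^ m)) (ha : a + a = 0) :
    a = 0 ∨ a = ((2 ^ (m - 1) : ℕ) : ZMod (2 ^ m)) := by
  haveI : NeZero (2 ^ m) := ⟨by positivity⟩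
  have hv : ((a.val + a.val : ℕ) : ZMod (2 ^ m)) = 0 := by
    rw [Nat.cast_add, ZMod.natCast_zmod_val]
    exact ha
  rw [ZMod.natCast_eq_zero_iff] at hv
  have hlt : a.val < 2 ^ m := ZMod.val_lt a
  obtain ⟨k, hk⟩ := hv
  have hk' : k = 0 ∨ k = 1 := by
    have h3 : 2 ^ m * k < 2 ^ m * 2 := by omega
    have h4 := Nat.lt_of_mul_lt_mul_left h3
    omega
  rcases hk' with rfl | rfl
  · left
    have h5 : a.val = 0 := by omega
    exact (ZMod.val_eq_zero a).mp h5
  · right
    have h2 : 2 ^ m = 2 * 2 ^ (m - 1) := by rw [← pow_succ', Nat.sub_add_cancel hm]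
    have h5 : a.val = 2 ^ (m - 1) := by omega
    rw [← h5, ZMod.natCast_zmod_val]

theorem three_pts {R : Type*} [AddCommGroup R] (h : R) (hh : h + h = 0) (a b c : R × R)
    (ha : a = (h, 0) ∨ a = (0, h) ∨ a = (h, h)) (hb : b = (h, 0) ∨ b = (0, h) ∨ b = (h, h))
    (hc : c = (h, 0) ∨ c = (0, h) ∨ c = (h, h)) (hba : b ≠ a) (hca : c ≠ a) :
    c = b ∨ c = a + b := by
  rcases ha with rfl | rfl | rfl <;> rcases hb with rfl | rfl | rfl <;>
    rcases hc with rfl | rfl | rfl <;> simp_all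

variable {G : Type*} [Group G]

theorem homocyclic_comm {P : Subgroup G} {m : ℕ}
    (e : P ≃* Multiplicative (ZMod (2 ^ m) × ZMod (2 ^ m))) (x y : G) (hx : x ∈ P)
    (hy : y ∈ P) : x * y = y * x := by
  have h : (⟨x, hx⟩ * ⟨y, hy⟩ : P) = ⟨y, hy⟩ * ⟨x, hx⟩ :=
    e.injective (by rw [map_mul, map_mul, mul_comm])
  exact congrArg Subtype.val h

theorem homocyclic_pow {P : Subgroup G} {m : ℕ}
    (e : P ≃* Multiplicative (ZMod (2 ^ m) × ZMod (2 ^ m))) (x : G) (hx : x ∈ P) :
    x ^ (2 ^ m) = 1 := by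
  have h : e ((⟨x, hx⟩ : P) ^ (2 ^ m)) = 1 := by
    rw [map_pow]
    apply Multiplicative.toAdd.injective
    rw [toAdd_pow, toAdd_one]
    refine Prod.ext ?_ ?_
    · rw [Prod.smul_fst, nsmul_eq_mul, ZMod.natCast_self, zero_mul]
      rfl
    · rw [Prod.smul_snd, nsmul_eq_mul, ZMod.natCast_self, zero_mul]
      rfl
  have h2 : (⟨x, hx⟩ : P) ^ (2 ^ m) = 1 := e.injective (by rw [h, map_one])
  exact congrArg Subtype.val h2

theorem homocyclic_invol {P : Subgroup G} {m : ℕ} (hm : 1 ≤ m)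
    (e : P ≃* Multiplicative (ZMod (2 ^ m) × ZMod (2 ^ m))) (t : P) (ht : t * t = 1)
    (ht1 : t ≠ 1) :
    Multiplicative.toAdd (e t) = (((2 ^ (m - 1) : ℕ) : ZMod (2 ^ m)), 0) ∨
    Multiplicative.toAdd (e t) = (0, ((2 ^ (m - 1) : ℕ) : ZMod (2 ^ m))) ∨
    Multiplicative.toAdd (e t)
      = (((2 ^ (m - 1) : ℕ) : ZMod (2 ^ m)), ((2 ^ (m - 1) : ℕ) : ZMod (2 ^ m))) := by
  have h0 : Multiplicative.toAdd (e t) + Multiplicative.toAdd (e t) = 0 := by
    rw [← toAdd_mul, ← map_mul, ht, map_one, toAdd_one]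
  have h1 := zmod_two_torsion hm (Multiplicative.toAdd (e t)).1 (congrArg Prod.fst h0)
  have h2 := zmod_two_torsion hm (Multiplicative.toAdd (e t)).2 (congrArg Prod.snd h0)
  have hne : Multiplicative.toAdd (e t) ≠ 0 := by
    intro h
    apply ht1
    apply e.injective
    rw [map_one]
    exact Multiplicative.toAdd.injective (by rw [h, toAdd_one])
  rcases h1 with h1 | h1 <;> rcases h2 with h2 | h2
  · exact absurd (Prod.ext h1 h2) hne
  · right; left; exact Prod.ext h1 h2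
  · left; exact Prod.ext h1 h2
  · right; right; exact Prod.ext h1 h2

theorem homocyclic_three {P : Subgroup G} {m : ℕ} (hm : 1 ≤ m)
    (e : P ≃* Multiplicative (ZMod (2 ^ m) × ZMod (2 ^ m))) (t₀ t s : P)
    (h₀ : t₀ * t₀ = 1) (h₀' : t₀ ≠ 1) (ht : t * t = 1) (ht' : t ≠ 1) (hs : s * s = 1)
    (hs' : s ≠ 1) (h1 : t ≠ t₀) (h2 : s ≠ t₀) : s = t ∨ s = t₀ * t := by
  have key := three_pts ((2 ^ (m - 1) : ℕ) : ZMod (2 ^ m)) (zmod_half_add_half hm)
    (Multiplicative.toAdd (e t₀)) (Multiplicative.toAdd (e t)) (Multiplicative.toAdd (e s))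
    (homocyclic_invol hm e t₀ h₀ h₀') (homocyclic_invol hm e t ht ht')
    (homocyclic_invol hm e s hs hs')
    (fun h => h1 (e.injective (Multiplicative.toAdd.injective h)))
    (fun h => h2 (e.injective (Multiplicative.toAdd.injective h)))
  rcases key with h | h
  · left
    exact e.injective (Multiplicative.toAdd.injective h)
  · right
    apply e.injective
    apply Multiplicative.toAdd.injective
    rw [h, map_mul, toAdd_mul]

/-- At most three involutions. -/
theorem homocyclic_card_invol {P : Subgroup G} {m : ℕ} (hm : 1 ≤ m)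
    (e : P ≃* Multiplicative (ZMod (2 ^ m) × ZMod (2 ^ m))) :
    Nat.card {t : P // t * t = 1 ∧ t ≠ 1} ≤ 3 := by
  classical
  set h : ZMod (2 ^ m) := ((2 ^ (m - 1) : ℕ) : ZMod (2 ^ m)) with hh
  set s : Finset (ZMod (2 ^ m) × ZMod (2 ^ m)) := {(h, 0), (0, h), (h, h)} with hs
  have hinj : Function.Injective
      (fun t : {t : P // t * t = 1 ∧ t ≠ 1} =>
        (⟨Multiplicative.toAdd (e t.1), by
          have := homocyclic_invol hm e t.1 t.2.1 t.2.2
          rw [hs]
          simp only [Finset.mem_insert, Finset.mem_singleton]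
          exact this⟩ : s)) := by
    intro a b hab
    have h1 : Multiplicative.toAdd (e a.1) = Multiplicative.toAdd (e b.1) :=
      congrArg Subtype.val hab
    exact Subtype.ext (e.injective (Multiplicative.toAdd.injective h1))
  have h1 := Nat.card_le_card_of_injective _ hinj
  have h2 : Nat.card s ≤ 3 := by
    rw [Nat.card_eq_fintype_card, Fintype.card_coe]
    exact Finset.card_le_three
  exact h1.trans h2

/-- The key coprime-action lemma: an element of `N(P)` with an odd power in `C(P)` which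
centralizes the elements of order at most `2` of the abelian `2`-group `P` centralizes `P`. -/
theorem centralizes_of_centralizes_invol {P : Subgroup G}
    (hcomm : ∀ x ∈ P, ∀ y ∈ P, x * y = y * x) (m : ℕ) (hexp : ∀ x ∈ P, x ^ (2 ^ m) = 1)
    (n : G) (hn : n ∈ Subgroup.normalizer (P : Set G)) (r : ℕ) (hr : Odd r)
    (hnr : n ^ r ∈ Subgroup.centralizer (P : Set G))
    (hfix : ∀ t ∈ P, t * t = 1 → n * t * n⁻¹ = t) :
    n ∈ Subgroup.centralizer (P : Set G) := by
  have key : ∀ i : ℕ, ∀ x ∈ P, x ^ (2 ^ i) = 1 → n * x * n⁻¹ = x := by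
    intro i
    induction i with
    | zero =>
      intro x _ hx1
      rw [pow_zero, pow_one] at hx1
      rw [hx1]
      group
    | succ i ih =>
      intro x hx hx1
      have hyP : n * x * n⁻¹ ∈ P := (Subgroup.mem_normalizer_iff.mp hn x).mp hx
      have hxx : (x * x) ^ (2 ^ i) = 1 := by
        rw [← pow_two, ← pow_mul, ← pow_succ']
        exact hx1
      have h1 : n * (x * x) * n⁻¹ = x * x := ih (x * x) (P.mul_mem hx hx) hxx
      have h2 : (n * x * n⁻¹) * (n * x * n⁻¹) = x * x := by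
        rw [← h1]; group
      have htP : n * x * n⁻¹ * x⁻¹ ∈ P := P.mul_mem hyP (P.inv_mem hx)
      have hc : (n * x * n⁻¹) * x⁻¹ = x⁻¹ * (n * x * n⁻¹) :=
        hcomm _ hyP _ (P.inv_mem hx)
      have htt : (n * x * n⁻¹ * x⁻¹) * (n * x * n⁻¹ * x⁻¹) = 1 := by
        calc (n * x * n⁻¹ * x⁻¹) * (n * x * n⁻¹ * x⁻¹)
            = (n * x * n⁻¹) * (x⁻¹ * (n * x * n⁻¹)) * x⁻¹ := by group
          _ = (n * x * n⁻¹) * ((n * x * n⁻¹) * x⁻¹) * x⁻¹ := by rw [hc]
          _ = ((n * x * n⁻¹) * (n * x * n⁻¹)) * x⁻¹ * x⁻¹ := by group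
          _ = 1 := by rw [h2]; group
      have h3 : n * (n * x * n⁻¹ * x⁻¹) * n⁻¹ = n * x * n⁻¹ * x⁻¹ := hfix _ htP htt
      -- n * (n x n⁻¹) * n⁻¹ = x
      have h4 : n * (n * x * n⁻¹) * n⁻¹ = x := by
        have e1 : n * (n * x * n⁻¹) * n⁻¹
            = (n * (n * x * n⁻¹ * x⁻¹) * n⁻¹) * (n * x * n⁻¹) := by group
        rw [e1, h3]
        calc n * x * n⁻¹ * x⁻¹ * (n * x * n⁻¹)
            = (n * x * n⁻¹) * (x⁻¹ * (n * x * n⁻¹)) := by group
          _ = (n * x * n⁻¹) * ((n * x * n⁻¹) * x⁻¹) := by rw [hc]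
          _ = ((n * x * n⁻¹) * (n * x * n⁻¹)) * x⁻¹ := by group
          _ = x := by rw [h2]; group
      have hc2 : Commute (n * n) x := by
        show n * n * x = x * (n * n)
        calc n * n * x = (n * (n * x * n⁻¹) * n⁻¹) * (n * n) := by group
          _ = x * (n * n) := by rw [h4]
      have hcr : Commute (n ^ r) x := by
        have := Subgroup.mem_centralizer_iff.mp hnr x hx
        exact this.symm
      obtain ⟨k, rfl⟩ := hr
      have hck : Commute ((n * n) ^ k) x := hc2.pow_left k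
      have hn' : n = ((n * n) ^ k)⁻¹ * n ^ (2 * k + 1) := by
        rw [← pow_two, ← pow_mul, pow_succ]
        group
      have hcn : Commute n x := by
        rw [hn']
        exact (hck.inv_left).mul_left hcr
      calc n * x * n⁻¹ = x * n * n⁻¹ := by rw [hcn.eq]
        _ = x := by group
  rw [Subgroup.mem_centralizer_iff]
  intro x hx
  have h := key m x hx (hexp x hx)
  calc x * n = (n * x * n⁻¹) * n := by rw [h]
    _ = n * x := by group

end Cfsg.Agent.Helper16
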