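import Cfsg.Agent.Helper16.Homocyclic

set_option autoImplicit false

namespace Cfsg.Agent.Helper16

variable {G : Type*} [Group G]

/-- Conjugation action of the normalizer of `P` on the involutions of `P`. -/
@[reducible] def involAction (P : Subgroup G) :
    MulAction (Subgroup.normalizer (P : Set G)) {t : P // t * t = 1 ∧ t ≠ 1} where
  smul n t := ⟨⟨(n : G) * (t.1 : G) * (n : G)⁻¹,
      (Subgroup.mem_normalizer_iff.mp n.2 t.1.1).mp t.1.2⟩, by
    constructor
    · apply Subtype.ext
      have h' : (t.1 : G) * (t.1 : G) = 1 := congrArg Subtype.val t.2.1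
      show (n : G) * (t.1 : G) * (n : G)⁻¹ * ((n : G) * (t.1 : G) * (n : G)⁻¹) = 1
      calc (n : G) * (t.1 : G) * (n : G)⁻¹ * ((n : G) * (t.1 : G) * (n : G)⁻¹)
          = (n : G) * ((t.1 : G) * (t.1 : G)) * (n : G)⁻¹ := by group
        _ = 1 := by rw [h']; group
    · intro h
      apply t.2.2
      apply Subtype.ext
      have h' : (n : G) * (t.1 : G) * (n : G)⁻¹ = 1 := congrArg Subtype.val h
      show (t.1 : G) = 1
      calc (t.1 : G) = (n : G)⁻¹ * ((n : G) * (t.1 : G) * (n : G)⁻¹) * (n : G) := by group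
        _ = 1 := by rw [h']; group⟩
  one_smul t := by
    apply Subtype.ext
    apply Subtype.ext
    show ((1 : Subgroup.normalizer (P : Set G)) : G) * (t.1 : G)
      * ((1 : Subgroup.normalizer (P : Set G)) : G)⁻¹ = (t.1 : G)
    simp
  mul_smul a b t := by
    apply Subtype.ext
    apply Subtype.ext
    show ((a * b : Subgroup.normalizer (P : Set G)) : G) * (t.1 : G)
        * ((a * b : Subgroup.normalizer (P : Set G)) : G)⁻¹
      = (a : G) * ((b : G) * (t.1 : G) * (b : G)⁻¹) * (a : G)⁻¹
    rw [Subgroup.coe_mul]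
    group

theorem homocyclic_main [Finite G] (P : Sylow 2 G) (m : ℕ) (hm : 1 ≤ m)
    (e : (P : Subgroup G) ≃* Multiplicative (ZMod (2 ^ m) × ZMod (2 ^ m))) :
    ((Subgroup.centralizer (P : Set G)).relIndex (Subgroup.normalizer (P : Set G)) = 1 ∨
      (Subgroup.centralizer (P : Set G)).relIndex (Subgroup.normalizer (P : Set G)) = 3) ∧
    ((Subgroup.centralizer (P : Set G)).relIndex (Subgroup.normalizer (P : Set G)) ≠ 1 →
      ∀ z ∈ (P : Subgroup G), z ≠ 1 →
        Subgroup.centralizer ({z} : Set G) ⊓ Subgroup.normalizer (P : Set G)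
          = Subgroup.centralizer (P : Set G)) := by
  classical
  have hset : (P : Set G) = ((P : Subgroup G) : Set G) := rfl
  rw [hset]
  generalize hQ : (P : Subgroup G) = Q at e ⊢
  have hcomm : ∀ x ∈ Q, ∀ y ∈ Q, x * y = y * x := fun x hx y hy => homocyclic_comm e x y hx hy
  have hexp : ∀ x ∈ Q, x ^ (2 ^ m) = 1 := fun x hx => homocyclic_pow e x hx
  have hQC : Q ≤ Subgroup.centralizer (Q : Set G) := by
    intro x hx
    rw [Subgroup.mem_centralizer_iff]
    intro y hy
    exact hcomm y hy x hx
  have hCN : Subgroup.centralizer (Q : Set G) ≤ Subgroup.normalizer (Q : Set G) :=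
    Subgroup.centralizer_le_normalizer _
  have hodd : Odd ((Subgroup.centralizer (Q : Set G)).relIndex
      (Subgroup.normalizer (Q : Set G))) := by
    rw [← Nat.not_even_iff_odd, even_iff_two_dvd]
    intro h2
    have h3 : (Subgroup.centralizer (Q : Set G)).relIndex (Subgroup.normalizer (Q : Set G))
        ∣ Q.relIndex (Subgroup.normalizer (Q : Set G)) :=
      ⟨Q.relIndex (Subgroup.centralizer (Q : Set G)), by
        rw [mul_comm]; exact (Subgroup.relIndex_mul_relIndex Q _ _ hQC hCN).symm⟩
    have h4 : Q.relIndex (Subgroup.normalizer (Q : Set G)) ∣ Q.index :=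
      Subgroup.relIndex_dvd_index_of_le (hQC.trans hCN)
    have h5 : ¬ 2 ∣ Q.index := by
      rw [← hQ]; exact P.not_dvd_index
    exact h5 (h2.trans (h3.trans h4))
  have hnorm : ((Subgroup.centralizer (Q : Set G)).subgroupOf
      (Subgroup.normalizer (Q : Set G))).Normal := by
    rw [Subgroup.normal_subgroupOf_iff hCN]
    intro c n hc hn
    rw [Subgroup.mem_centralizer_iff]
    intro x hx
    have hx' : n⁻¹ * x * n ∈ Q := (Subgroup.mem_normalizer_iff''.mp hn x).mp hx
    have h1 := Subgroup.mem_centralizer_iff.mp hc _ hx'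
    calc x * (n * c * n⁻¹) = n * ((n⁻¹ * x * n) * c) * n⁻¹ := by group
      _ = n * (c * (n⁻¹ * x * n)) * n⁻¹ := by rw [h1]
      _ = n * c * n⁻¹ * x := by group
  have hpow : ∀ n ∈ Subgroup.normalizer (Q : Set G),
      n ^ ((Subgroup.centralizer (Q : Set G)).relIndex (Subgroup.normalizer (Q : Set G)))
        ∈ Subgroup.centralizer (Q : Set G) := by
    intro n hn
    have h1 := ((Subgroup.centralizer (Q : Set G)).subgroupOf
      (Subgroup.normalizer (Q : Set G))).pow_index_mem
      (⟨n, hn⟩ : Subgroup.normalizer (Q : Set G))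
    rw [Subgroup.mem_subgroupOf] at h1
    have h2 : n ^ (((Subgroup.centralizer (Q : Set G)).subgroupOf
        (Subgroup.normalizer (Q : Set G))).index) ∈ Subgroup.centralizer (Q : Set G) := by
      simpa using h1
    exact h2
  letI := involAction Q
  have hker : (MulAction.toPermHom (Subgroup.normalizer (Q : Set G))
      {t : Q // t * t = 1 ∧ t ≠ 1}).ker
      = (Subgroup.centralizer (Q : Set G)).subgroupOf (Subgroup.normalizer (Q : Set G)) := by
    ext n
    rw [MonoidHom.mem_ker, Subgroup.mem_subgroupOf]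
    constructor
    · intro h
      apply centralizes_of_centralizes_invol hcomm m hexp n n.2 _ hodd (hpow n n.2)
      intro t ht htt
      by_cases h1 : t = 1
      · rw [h1]; group
      · have h2 := congrArg (fun σ : Equiv.Perm {t : Q // t * t = 1 ∧ t ≠ 1} =>
          σ ⟨⟨t, ht⟩, Subtype.ext htt, fun h' => h1 (congrArg Subtype.val h')⟩) h
        exact congrArg (fun s : {t : Q // t * t = 1 ∧ t ≠ 1} => ((s.1 : Q) : G)) h2
    · intro h
      apply Equiv.ext
      intro t
      apply Subtype.ext
      apply Subtype.ext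
      show (n : G) * (t.1 : G) * (n : G)⁻¹ = (t.1 : G)
      have h1 := Subgroup.mem_centralizer_iff.mp h (t.1 : G) t.1.2
      calc (n : G) * (t.1 : G) * (n : G)⁻¹ = ((t.1 : G) * (n : G)) * (n : G)⁻¹ := by rw [h1]
        _ = (t.1 : G) := by group
  have hdvd : (Subgroup.centralizer (Q : Set G)).relIndex (Subgroup.normalizer (Q : Set G))
      ∣ 6 := by
    have h1 : (Subgroup.centralizer (Q : Set G)).relIndex (Subgroup.normalizer (Q : Set G))
        = Nat.card (MulAction.toPermHom (Subgroup.normalizer (Q : Set G))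
          {t : Q // t * t = 1 ∧ t ≠ 1}).range := by
      rw [← Subgroup.index_ker, hker]
      rfl
    rw [h1]
    have h2 : Nat.card (MulAction.toPermHom (Subgroup.normalizer (Q : Set G))
          {t : Q // t * t = 1 ∧ t ≠ 1}).range
        ∣ Nat.card (Equiv.Perm {t : Q // t * t = 1 ∧ t ≠ 1}) :=
      Subgroup.card_subgroup_dvd_card _
    have h3 : Nat.card (Equiv.Perm {t : Q // t * t = 1 ∧ t ≠ 1}) ∣ 6 := by
      rw [Nat.card_perm]
      exact Nat.factorial_dvd_factorial (homocyclic_card_invol hm e)
    exact h2.trans h3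
  have h13 : (Subgroup.centralizer (Q : Set G)).relIndex (Subgroup.normalizer (Q : Set G)) = 1 ∨
      (Subgroup.centralizer (Q : Set G)).relIndex (Subgroup.normalizer (Q : Set G)) = 3 := by
    have hle := Nat.le_of_dvd (by norm_num) hdvd
    obtain ⟨k, hk⟩ := hodd
    rw [hk] at hdvd hle ⊢
    have hk3 : k ≤ 2 := by omega
    interval_cases k
    · left; rfl
    · right; rfl
    · exfalso; revert hdvd; decide
  refine ⟨h13, ?_⟩
  intro hne z hz hz1
  have hr3 : (Subgroup.centralizer (Q : Set G)).relIndex (Subgroup.normalizer (Q : Set G)) = 3 :=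
    h13.resolve_left hne
  apply le_antisymm
  · rintro n ⟨hnz, hnN⟩
    have hnz' : Commute n z := by
      have := Subgroup.mem_centralizer_iff.mp hnz z rfl
      exact this.symm
    -- the involution in the cyclic group generated by z
    have hex : ∃ i : ℕ, z ^ (2 ^ i) = 1 := ⟨m, hexp z hz⟩
    have hi0 : Nat.find hex ≠ 0 := by
      intro h0
      have := Nat.find_spec hex
      rw [h0, pow_zero, pow_one] at this
      exact hz1 this
    obtain ⟨j, hj⟩ := Nat.exists_eq_succ_of_ne_zero hi0
    have ht1 : z ^ (2 ^ j) ≠ 1 := Nat.find_min hex (by omega)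
    have htt : z ^ (2 ^ j) * z ^ (2 ^ j) = 1 := by
      have := Nat.find_spec hex
      rw [hj, pow_succ, pow_mul, pow_two] at this
      exact this
    have htQ : z ^ (2 ^ j) ∈ Q := Q.pow_mem hz _
    have hnt : n * z ^ (2 ^ j) * n⁻¹ = z ^ (2 ^ j) := by
      have := (hnz'.pow_right (2 ^ j)).eq
      rw [this]; group
    -- n * n fixes every involution
    have hfix2 : ∀ s ∈ Q, s * s = 1 → (n * n) * s * (n * n)⁻¹ = s := by
      intro s hs hss
      by_cases hs1 : s = 1
      · rw [hs1]; group
      by_cases hst : s = z ^ (2 ^ j)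
      · rw [hst]
        calc n * n * z ^ (2 ^ j) * (n * n)⁻¹ = n * (n * z ^ (2 ^ j) * n⁻¹) * n⁻¹ := by group
          _ = z ^ (2 ^ j) := by rw [hnt, hnt]
      · have hs'Q : n * s * n⁻¹ ∈ Q := (Subgroup.mem_normalizer_iff.mp hnN s).mp hs
        have hs's' : (n * s * n⁻¹) * (n * s * n⁻¹) = 1 := by
          calc (n * s * n⁻¹) * (n * s * n⁻¹) = n * (s * s) * n⁻¹ := by group
            _ = 1 := by rw [hss]; group
        have hs'1 : n * s * n⁻¹ ≠ 1 := by
          intro h
          apply hs1
          calc s = n⁻¹ * (n * s * n⁻¹) * n := by group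
            _ = 1 := by rw [h]; group
        have hs't : n * s * n⁻¹ ≠ z ^ (2 ^ j) := by
          intro h
          apply hst
          calc s = n⁻¹ * (n * s * n⁻¹) * n := by group
            _ = n⁻¹ * (n * z ^ (2 ^ j) * n⁻¹) * n := by rw [h, hnt]
            _ = z ^ (2 ^ j) := by group
        have key := homocyclic_three hm e ⟨z ^ (2 ^ j), htQ⟩ ⟨s, hs⟩ ⟨n * s * n⁻¹, hs'Q⟩
          (Subtype.ext htt) (fun h => ht1 (congrArg Subtype.val h))
          (Subtype.ext hss) (fun h => hs1 (congrArg Subtype.val h))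
          (Subtype.ext hs's') (fun h => hs'1 (congrArg Subtype.val h))
          (fun h => hst (congrArg Subtype.val h)) (fun h => hs't (congrArg Subtype.val h))
        rcases key with h | h
        · have h' : n * s * n⁻¹ = s := congrArg Subtype.val h
          calc n * n * s * (n * n)⁻¹ = n * (n * s * n⁻¹) * n⁻¹ := by group
            _ = s := by rw [h', h']
        · have h' : n * s * n⁻¹ = z ^ (2 ^ j) * s := congrArg Subtype.val h
          calc n * n * s * (n * n)⁻¹ = n * (n * s * n⁻¹) * n⁻¹ := by group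
            _ = n * (z ^ (2 ^ j) * s) * n⁻¹ := by rw [h']
            _ = (n * z ^ (2 ^ j) * n⁻¹) * (n * s * n⁻¹) := by group
            _ = z ^ (2 ^ j) * (z ^ (2 ^ j) * s) := by rw [hnt, h']
            _ = (z ^ (2 ^ j) * z ^ (2 ^ j)) * s := by group
            _ = s := by rw [htt, one_mul]
    have hn3 : n ^ 3 ∈ Subgroup.centralizer (Q : Set G) := by
      have := hpow n hnN
      rwa [hr3] at this
    have hnn : n * n ∈ Subgroup.centralizer (Q : Set G) := by
      apply centralizes_of_centralizes_invol hcomm m hexp (n * n)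
        (Subgroup.mul_mem _ hnN hnN) 3 (by decide) _ hfix2
      have e1 : (n * n) ^ 3 = n ^ 3 * n ^ 3 := by rw [← pow_two, ← pow_mul, ← pow_add]
      rw [e1]
      exact Subgroup.mul_mem _ hn3 hn3
    have e2 : n = n ^ 3 * (n * n)⁻¹ := by
      rw [pow_succ, pow_two]; group
    rw [e2]
    exact Subgroup.mul_mem _ hn3 (Subgroup.inv_mem _ hnn)
  · exact le_inf (Subgroup.centralizer_le (Set.singleton_subset_iff.mpr hz)) hCN

end Cfsg.Agent.Helper16
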