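import Cfsg.Agent.Helper16.FongCount
import Cfsg.Agent.Helper16.ExtFMT
import Cfsg.Agent.Helper16.BK

/-!
# The inertial index of a block with defect group `P` is prime to `p`

If `b` is a block of `H` (`P ≤ H ≤ N_G(P)`) inducing a block `B` of `G` with defect group `P`, and
`T ≥ H` normalizes `H` and stabilizes `b`, then `p ∤ |T : H|`.
-/

set_option autoImplicit false
set_option linter.unusedSectionVars false
set_option linter.unusedVariables false
set_option linter.style.longLine false
set_option linter.unnecessarySimpa false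
set_option linter.style.multiGoal false
set_option linter.flexible false

namespace Cfsg.Agent.Helper16

universe u

section inertial

variable {G : Type u} [Group G] [Fintype G]

/-- **Inertial index.**  Let `P ≤ H ≤ N_G(P)`, let `b` be a block of `H` inducing the block `B`
of `G`, and suppose `B` has defect group `P`.  If `T ≥ H` normalizes `H` and stabilizes `b`, then
`p` does not divide `|T : H|`. -/
theorem inertial_not_dvd {p : ℕ} [Fact p.Prime] {M : Ideal Cfsg.AlgInt}
    (hM : Cfsg.IsPModular p M) {P H T : Subgroup G} (hPH : P ≤ H) (hHT : H ≤ T)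
    (hHP : H ≤ Subgroup.normalizer (P : Set G))
    (hTH : T ≤ Subgroup.normalizer (H : Set G))
    {b : Set (Cfsg.IrrCharacter H)} {B : Set (Cfsg.IrrCharacter G)}
    (hind : Cfsg.IsInducedBlock M H b B) (hPD : Cfsg.IsDefectGroup p M B P)
    (hstab : ∀ t ∈ T, ∀ θ ∈ b, ∃ θ' ∈ b, Cfsg.IsConjCharOf H t (θ : H → ℂ) (θ' : H → ℂ)) :
    ¬ p ∣ H.relIndex T := by
  classical
  have : Fintype H := Fintype.ofFinite H
  have : Fintype T := Fintype.ofFinite T
  have : Fintype (H.subgroupOf T) := Fintype.ofFinite _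
  have : Fintype (ConjClasses T) := Fintype.ofFinite _
  have hMm := hM.2.1
  have hp : p.Prime := hM.1
  obtain ⟨θ, hθ⟩ := exists_mem_of_isPBlock hMm hind.1
  obtain ⟨χ, hχ⟩ := exists_mem_of_isPBlock hMm hind.2.1
  obtain ⟨y, hy, hPy, hcard, hPp⟩ := isDefectGroup_exists_data hPD
  have h2 : ¬ Cfsg.MemLocalIdeal M (Cfsg.inducedCentralChar H (θ : H → ℂ) y) := by
    intro h
    apply hy.2.2 χ hχ
    have h3 := Helper77.memLocalIdeal_sub hMm h (hind.2.2 θ hθ χ hχ y)
    simpa using h3
  rw [inducedCentralChar_subgroupOf T H hHT (θ : H → ℂ) y] at h2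
  obtain ⟨c, hc⟩ : ∃ c : ConjClasses T, ¬ Cfsg.MemLocalIdeal M
      (Helper81.classInd y ((Quotient.out c : T) : G) *
        Cfsg.inducedCentralChar (H.subgroupOf T)
          (fun k => (θ : H → ℂ) (Subgroup.subgroupOfEquivOfLe hHT k)) (Quotient.out c)) := by
    by_contra hcon
    push Not at hcon
    exact h2 (Helper77.memLocalIdeal_sum hMm _ _ fun c _ => hcon c)
  obtain ⟨x, hx⟩ : ∃ x : T, x = Quotient.out c := ⟨_, rfl⟩
  rw [← hx] at hc
  have hconj : IsConj y (x : G) := by
    by_contra hcon
    apply hc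
    simp only [Helper81.classInd, if_neg hcon, zero_mul]
    exact Helper77.memLocalIdeal_zero hMm
  have hx2 : ¬ Cfsg.MemLocalIdeal M (Cfsg.inducedCentralChar (H.subgroupOf T)
      (fun k => (θ : H → ℂ) (Subgroup.subgroupOfEquivOfLe hHT k)) x) := by
    simpa only [Helper81.classInd, if_pos hconj, one_mul] using hc
  have hNn : (H.subgroupOf T).Normal := Subgroup.normal_subgroupOf_of_le_normalizer hTH
  have hxN : x ∈ H.subgroupOf T := by
    by_contra hcon
    apply hx2
    unfold Cfsg.inducedCentralChar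
    rw [finsum_mem_eq_zero_of_forall_eq_zero]
    · exact Helper77.memLocalIdeal_zero hMm
    · intro h hh
      exfalso
      apply hcon
      obtain ⟨t, ht⟩ := isConj_iff.mp hh
      have h4 : x = t⁻¹ * (h : T) * t := by rw [← ht]; group
      rw [h4]
      have := hNn.conj_mem (h : T) h.2 t⁻¹
      rwa [inv_inv] at this
  obtain ⟨σ, hσ⟩ : ∃ σ : H.subgroupOf T ≃* H, σ = Subgroup.subgroupOfEquivOfLe hHT := ⟨_, rfl⟩
  have hσcoe : ∀ k : H.subgroupOf T, ((σ k : H) : G) = ((k : T) : G) := by
    intro k; rw [hσ]; rfl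
  rw [← hσ] at hx2
  have hθinv : ∀ g : T, Cfsg.SameBlock M
      (irrConj (H.subgroupOf T) g (Helper75.irrComp σ θ) : H.subgroupOf T → ℂ)
      (Helper75.irrComp σ θ : H.subgroupOf T → ℂ) := by
    intro g
    obtain ⟨θ₁, hθ₁, hconj₁⟩ := hstab g g.2 θ hθ
    have e : (irrConj (H.subgroupOf T) g (Helper75.irrComp σ θ) : H.subgroupOf T → ℂ)
        = fun k => (θ₁ : H → ℂ) (σ k) := by
      funext k
      rw [irrConj_apply, Helper75.irrComp_apply]
      refine (hconj₁ _ (σ k) ?_).symm
      rw [hσcoe, hσcoe]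
      show ((k : T) : G) = (g : G) * ((g⁻¹ * (k : T) * g : T) : G) * (g : G)⁻¹
      push_cast
      group
    rw [e]
    exact Helper75.sameBlock_comp_mulEquiv σ (sameBlock_of_mem hMm hind.1 hθ₁ hθ)
  obtain ⟨hfac, hcc⟩ := fongCount_factorization_centralizer hM (H.subgroupOf T)
    (Helper75.irrComp σ θ) hθinv ⟨x, hxN⟩ hx2
  have hcc' : Cfsg.centralChar (Helper75.irrComp σ θ : H.subgroupOf T → ℂ) ⟨x, hxN⟩
      = Cfsg.centralChar (θ : H → ℂ) (σ ⟨x, hxN⟩) :=
    Helper75.centralChar_comp_mulEquiv σ (θ : H → ℂ) ⟨x, hxN⟩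
  rw [hcc'] at hcc
  have hPn : (P.subgroupOf H).Normal := Subgroup.normal_subgroupOf_of_le_normalizer hHP
  have hxP : σ ⟨x, hxN⟩ ∈ Subgroup.centralizer ((P.subgroupOf H : Subgroup H) : Set H) := by
    by_contra hcon
    exact hcc (centralChar_memLocalIdeal_of_not_mem_centralizer hM (P.subgroupOf H)
      hPp.comap_subtype θ _ hcon)
  have hxP' : ∀ q ∈ P, q * (x : G) = (x : G) * q := by
    intro q hq
    have h5 := Subgroup.mem_centralizer_iff.mp hxP ⟨q, hPH hq⟩
      (by rw [SetLike.mem_coe, Subgroup.mem_subgroupOf]; exact hq)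
    have h6 := congrArg (fun k : H => (k : G)) h5
    simpa [hσcoe] using h6
  -- cardinalities
  have hd1 : Nat.card P ∣ Nat.card (Subgroup.centralizer ({(⟨x, hxN⟩ : H.subgroupOf T)} :
      Set (H.subgroupOf T))) := by
    have hle : (P.subgroupOf T).subgroupOf (H.subgroupOf T)
        ≤ Subgroup.centralizer ({(⟨x, hxN⟩ : H.subgroupOf T)} : Set (H.subgroupOf T)) := by
      intro k hk
      rw [Subgroup.mem_subgroupOf, Subgroup.mem_subgroupOf] at hk
      rw [Subgroup.mem_centralizer_iff]
      intro z hz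
      rw [Set.mem_singleton_iff] at hz
      subst hz
      apply Subtype.ext
      apply Subtype.ext
      exact (hxP' _ hk).symm
    have hc1 : Nat.card ((P.subgroupOf T).subgroupOf (H.subgroupOf T)) = Nat.card P := by
      have hle' : P.subgroupOf T ≤ H.subgroupOf T := by
        intro k hk
        rw [Subgroup.mem_subgroupOf] at hk ⊢
        exact hPH hk
      rw [Nat.card_congr (Subgroup.subgroupOfEquivOfLe hle').toEquiv,
        Nat.card_congr (Subgroup.subgroupOfEquivOfLe (hPH.trans hHT)).toEquiv]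
    rw [← hc1]
    exact Subgroup.card_dvd_of_le hle
  have hd2 : Nat.card (Subgroup.centralizer ({x} : Set T))
      ∣ Nat.card (Subgroup.centralizer ({(x : G)} : Set G)) := by
    have hle : (Subgroup.centralizer ({x} : Set T)).map T.subtype
        ≤ Subgroup.centralizer ({(x : G)} : Set G) := by
      rintro _ ⟨k, hk, rfl⟩
      have h7 := Subgroup.mem_centralizer_iff.mp hk x rfl
      rw [Subgroup.mem_centralizer_iff]
      intro z hz
      rw [Set.mem_singleton_iff] at hz
      subst hz
      exact congrArg (fun k : T => (k : G)) h7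
    rw [← Subgroup.card_map_of_injective T.subtype_injective]
    exact Subgroup.card_dvd_of_le hle
  have hd3 : Nat.card (Subgroup.centralizer ({(x : G)} : Set G))
      = Nat.card (Subgroup.centralizer ({y} : Set G)) := by
    obtain ⟨t, ht⟩ := isConj_iff.mp hconj
    rw [← ht]
    exact card_centralizer_conj y t
  rw [hd3] at hd2
  rw [hcard] at hd1
  have he1 : (Nat.card (Subgroup.centralizer ({y} : Set G))).factorization p
      ≤ (Nat.card (Subgroup.centralizer ({(⟨x, hxN⟩ : H.subgroupOf T)} :
        Set (H.subgroupOf T)))).factorization p :=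
    (Nat.Prime.pow_dvd_iff_le_factorization hp Nat.card_pos.ne').mp hd1
  have he2 : (Nat.card (Subgroup.centralizer ({x} : Set T))).factorization p
      ≤ (Nat.card (Subgroup.centralizer ({y} : Set G))).factorization p :=
    (Nat.factorization_le_iff_dvd Nat.card_pos.ne' Nat.card_pos.ne').mpr hd2 p
  have hidx0 : (H.subgroupOf T).index ≠ 0 := Subgroup.index_ne_zero_of_finite
  intro hdvd
  have he3 : 0 < (H.subgroupOf T).index.factorization p :=
    Nat.Prime.factorization_pos_of_dvd hp hidx0 hdvd
  have hfac' : (Nat.card (Subgroup.centralizer ({x} : Set T))).factorization p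
      = (H.subgroupOf T).index.factorization p
        + (Nat.card (Subgroup.centralizer ({(⟨x, hxN⟩ : H.subgroupOf T)} :
          Set (H.subgroupOf T)))).factorization p := hfac
  omega

end inertial

end Cfsg.Agent.Helper16
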