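import Mathlib

/-!
# A `p'`-group of automorphisms of a cyclic `p`-group

If `T ≤ N_G(P)` with `P` a cyclic `p`-subgroup and `p ∤ |T : C_T(P)|`, then `T / C_T(P)` is cyclic
of order dividing `p - 1` and acts freely on the non-identity elements of `P`.
-/

set_option autoImplicit false
set_option linter.unusedSectionVars false
set_option linter.unusedVariables false
set_option linter.style.longLine false
set_option linter.unnecessarySimpa false
set_option linter.style.multiGoal false
set_option linter.flexible false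

namespace Cfsg.Agent.Helper16

/-- An element of `T` fixing a non-identity element of the cyclic `p`-group `P` centralizes `P`,
provided `p ∤ |T : C_T(P)|`. -/
theorem inertialCyclic_mem_centralizer {G : Type*} [Group G] [Finite G] {p : ℕ} [Fact p.Prime]
    {P T : Subgroup G} (hPp : IsPGroup p P) (hcyc : IsCyclic P)
    (hTN : T ≤ Subgroup.normalizer (P : Set G))
    [hn : ((Subgroup.centralizer (P : Set G)).subgroupOf T).Normal]
    (hnd : ¬ p ∣ (Subgroup.centralizer (P : Set G)).relIndex T)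
    (g : G) (hg : g ∈ T) (x : G) (hx : x ∈ P) (hx1 : x ≠ 1) (hgx : g * x * g⁻¹ = x) :
    g ∈ Subgroup.centralizer (P : Set G) := by
  have hp : p.Prime := Fact.out
  obtain ⟨w, hw⟩ := hcyc.exists_generator
  obtain ⟨n, hn'⟩ := hPp.exists_card_eq
  have how : orderOf (w : G) = p ^ n := by
    rw [Subgroup.orderOf_coe, orderOf_eq_card_of_forall_mem_zpowers hw, hn']
  have hPw : ∀ q ∈ P, ∃ e : ℤ, (w : G) ^ e = q := by
    intro q hq
    obtain ⟨e, he⟩ := Subgroup.mem_zpowers_iff.mp (hw ⟨q, hq⟩)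
    exact ⟨e, by simpa using congrArg (fun k : P => (k : G)) he⟩
  have hgw : g * (w : G) * g⁻¹ ∈ P := (Subgroup.mem_normalizer_iff.mp (hTN hg) (w : G)).mp w.2
  obtain ⟨k, hk⟩ := hPw _ hgw
  have hconj : ∀ e : ℤ, g * (w : G) ^ e * g⁻¹ = (w : G) ^ (k * e) := by
    intro e
    rw [zpow_mul, hk, conj_zpow]
  have hpow : ∀ j : ℕ, g ^ j * (w : G) * (g ^ j)⁻¹ = (w : G) ^ (k ^ j) := by
    intro j
    induction j with
    | zero => simp
    | succ j ih =>
      have h0 : g ^ (j + 1) * (w : G) * (g ^ (j + 1))⁻¹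
          = g * (g ^ j * (w : G) * (g ^ j)⁻¹) * g⁻¹ := by
        rw [pow_succ']; group
      rw [h0, ih, hconj, pow_succ, mul_comm]
  obtain ⟨e, he⟩ := hPw x hx
  have h1 : (w : G) ^ ((k - 1) * e) = 1 := by
    have h0 : (w : G) ^ (k * e) = (w : G) ^ e := by rw [← hconj, he, hgx]
    rw [sub_mul, one_mul, zpow_sub, h0, mul_inv_cancel]
  have h2 : ((p ^ n : ℕ) : ℤ) ∣ (k - 1) * e := by
    rw [← how]; exact orderOf_dvd_iff_zpow_eq_one.mpr h1
  have h3 : ¬ ((p ^ n : ℕ) : ℤ) ∣ e := by
    intro h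
    apply hx1
    rw [← he]
    rw [← how] at h
    exact orderOf_dvd_iff_zpow_eq_one.mp h
  have h4 : (p : ℤ) ∣ k - 1 := by
    by_contra hcon
    apply h3
    have hpi : Irreducible (p : ℤ) := (Nat.prime_iff_prime_int.mp hp).irreducible
    have hcop : IsCoprime ((p ^ n : ℕ) : ℤ) (k - 1) := by
      rw [Nat.cast_pow]
      exact ((hpi.coprime_iff_not_dvd).mpr hcon).pow_left
    exact hcop.dvd_of_dvd_mul_left h2
  have hn1 : n ≠ 0 := by
    rintro rfl
    apply hx1
    rw [pow_zero] at how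
    have h0 : (w : G) = 1 := orderOf_eq_one_iff.mp how
    rw [← he, h0, one_zpow]
  obtain ⟨m, rfl⟩ := Nat.exists_eq_succ_of_ne_zero hn1
  have h5 := dvd_sub_pow_of_dvd_sub (R := ℤ) (a := k) (b := 1) h4 m
  have h6 : g ^ (p ^ m) * (w : G) * (g ^ (p ^ m))⁻¹ = (w : G) := by
    rw [hpow]
    have h0 : (w : G) ^ (k ^ (p ^ m) - 1) = 1 := by
      apply orderOf_dvd_iff_zpow_eq_one.mp
      rw [how]
      simpa using h5
    calc (w : G) ^ (k ^ (p ^ m)) = (w : G) ^ ((k ^ (p ^ m) - 1) + 1) := by ring_nf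
      _ = (w : G) := by rw [zpow_add, h0, one_mul, zpow_one]
  have h7 : g ^ (p ^ m) ∈ Subgroup.centralizer (P : Set G) := by
    rw [Subgroup.mem_centralizer_iff]
    intro q hq
    obtain ⟨e', rfl⟩ := hPw q hq
    have hc : Commute (g ^ (p ^ m)) (w : G) := by
      show g ^ (p ^ m) * (w : G) = (w : G) * g ^ (p ^ m)
      calc g ^ (p ^ m) * (w : G)
          = (g ^ (p ^ m) * (w : G) * (g ^ (p ^ m))⁻¹) * g ^ (p ^ m) := by group
        _ = _ := by rw [h6]
    exact ((hc.zpow_right e').eq).symm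
  have h8 : g ^ ((Subgroup.centralizer (P : Set G)).relIndex T)
      ∈ Subgroup.centralizer (P : Set G) := by
    have h0 := Subgroup.pow_index_mem ((Subgroup.centralizer (P : Set G)).subgroupOf T)
      (⟨g, hg⟩ : T)
    rw [Subgroup.mem_subgroupOf] at h0
    have h00 : ((⟨g, hg⟩ : T) ^ ((Subgroup.centralizer (P : Set G)).subgroupOf T).index : T)
        = (⟨g ^ ((Subgroup.centralizer (P : Set G)).relIndex T), Subgroup.pow_mem _ hg _⟩ : T) :=
      rfl
    rw [h00] at h0
    exact h0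
  have hcop : IsCoprime ((p ^ m : ℕ) : ℤ)
      (((Subgroup.centralizer (P : Set G)).relIndex T : ℕ) : ℤ) := by
    rw [Nat.isCoprime_iff_coprime]
    exact Nat.Coprime.pow_left _ ((Nat.Prime.coprime_iff_not_dvd hp).mpr hnd)
  obtain ⟨a, b, hab⟩ := hcop
  have hfin : g = (g ^ (p ^ m)) ^ a
      * (g ^ ((Subgroup.centralizer (P : Set G)).relIndex T)) ^ b := by
    rw [← zpow_natCast, ← zpow_natCast, ← zpow_mul, ← zpow_mul, ← zpow_add, mul_comm _ a,
      mul_comm _ b, hab, zpow_one]
  rw [hfin]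
  exact Subgroup.mul_mem _ (Subgroup.zpow_mem _ h7 a) (Subgroup.zpow_mem _ h8 b)

/-- `T / C_T(P)` is cyclic of order dividing `p - 1` for a cyclic `p`-group `P` normalized by `T`
with `p ∤ |T : C_T(P)|`. -/
theorem inertialCyclic_quotient {G : Type*} [Group G] [Finite G] {p : ℕ} [Fact p.Prime]
    {P T : Subgroup G} (hPp : IsPGroup p P) (hcyc : IsCyclic P)
    (hTN : T ≤ Subgroup.normalizer (P : Set G))
    [hn : ((Subgroup.centralizer (P : Set G)).subgroupOf T).Normal]
    (hnd : ¬ p ∣ (Subgroup.centralizer (P : Set G)).relIndex T) :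
    IsCyclic (T ⧸ (Subgroup.centralizer (P : Set G)).subgroupOf T) ∧
      (Subgroup.centralizer (P : Set G)).relIndex T ∣ p - 1 := by
  have hp : p.Prime := Fact.out
  obtain ⟨φ, hφ⟩ : ∃ φ : T →* MulAut P,
      φ = (P.normalizerMonoidHom).comp (Subgroup.inclusion hTN) := ⟨_, rfl⟩
  have hker : (Subgroup.centralizer (P : Set G)).subgroupOf T = φ.ker := by
    rw [hφ, ← MonoidHom.comap_ker, Subgroup.normalizerMonoidHom_ker]
    ext t
    simp [Subgroup.mem_subgroupOf]
  have key : ∀ (K : Subgroup T) [K.Normal], K = φ.ker → ¬ p ∣ K.index →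
      IsCyclic (T ⧸ K) ∧ K.index ∣ p - 1 := by
    rintro K _ rfl hnd'
    have hinj := QuotientGroup.kerLift_injective φ
    have hdvd := Subgroup.card_dvd_of_injective _ hinj
    rw [← Subgroup.index_eq_card, IsCyclic.card_mulAut] at hdvd
    obtain ⟨n, hn'⟩ := hPp.exists_card_eq
    rw [hn'] at hdvd
    have hdiv : φ.ker.index ∣ p - 1 := by
      rcases Nat.eq_zero_or_pos n with h0 | h0
      · rw [h0, pow_zero, Nat.totient_one] at hdvd
        exact hdvd.trans (one_dvd _)
      · rw [Nat.totient_prime_pow hp h0] at hdvd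
        have hcop : Nat.Coprime φ.ker.index (p ^ (n - 1)) :=
          Nat.Coprime.pow_right _ ((Nat.coprime_comm.mp ((Nat.Prime.coprime_iff_not_dvd hp).mpr hnd')))
        exact hcop.dvd_of_dvd_mul_left hdvd
    refine ⟨?_, hdiv⟩
    by_cases hp2 : p = 2
    · rw [hp2] at hdiv
      have h1 : Nat.card (T ⧸ φ.ker) = 1 := by
        rw [← Subgroup.index_eq_card]
        exact Nat.dvd_one.mp hdiv
      have := (Nat.card_eq_one_iff_unique.mp h1).1
      exact isCyclic_of_subsingleton
    · have hZ : IsCyclic (ZMod (Nat.card P))ˣ := by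
        rw [hn']
        exact ZMod.isCyclic_units_of_prime_pow p hp hp2 n
      exact isCyclic_of_injective
        ((IsCyclic.mulAutMulEquiv P).toMonoidHom.comp (QuotientGroup.kerLift φ))
        ((IsCyclic.mulAutMulEquiv P).injective.comp hinj)
  exact key _ hker hnd

end Cfsg.Agent.Helper16
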