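import Cfsg.Agent.Helper76.DominateDefect
import Cfsg.Agent.Helper16.Fong
import Cfsg.Agent.Helper16.BrauerCorr

/-!
# Blocks of `G ⧸ N` for a normal `p`-subgroup `N`

Every block `B` of `G` dominates a block of `G ⧸ N` whose defect groups are exactly the images
of the defect groups of `B`.
-/

set_option autoImplicit false
set_option linter.unusedSectionVars false
set_option linter.unusedVariables false
set_option linter.style.longLine false
set_option linter.unnecessarySimpa false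
set_option linter.style.multiGoal false
set_option linter.flexible false

namespace Cfsg.Agent.Helper16

universe u

open scoped ComplexConjugate

section quotDefect

variable {G : Type u} [Group G] [Fintype G]

/-- The characters of `G ⧸ N` whose inflation lies in `B`. -/
def quotDefectSet (N : Subgroup G) [N.Normal] (B : Set (Cfsg.IrrCharacter G)) :
    Set (Cfsg.IrrCharacter (G ⧸ N)) := {ψ | Helper76.irrInfl N ψ ∈ B}

theorem quotDefect_irrInfl_injective (N : Subgroup G) [N.Normal] :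
    Function.Injective (Helper76.irrInfl N) := by
  intro ψ ψ' h
  apply Subtype.ext
  funext x
  obtain ⟨g, rfl⟩ := QuotientGroup.mk_surjective x
  have := congrArg (fun χ : Cfsg.IrrCharacter G => (χ : G → ℂ) g) h
  simpa [Helper76.irrInfl_apply] using this

/-- Summing the idempotent of `B` over a coset of `N` gives the idempotent of the set of
characters of `G ⧸ N` dominated by `B`. -/
theorem quotDefect_sum_coset (N : Subgroup G) [N.Normal] [Fintype N] [Fintype (G ⧸ N)]
    (B : Set (Cfsg.IrrCharacter G)) (g : G) :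
    ∑ u : N, Cfsg.blockCoeff B (g * (u : G))
      = Cfsg.blockCoeff (quotDefectSet N B) (g : G ⧸ N) := by
  classical
  have := Fintype.ofFinite (Cfsg.IrrCharacter G)
  have := Fintype.ofFinite (Cfsg.IrrCharacter (G ⧸ N))
  unfold Cfsg.blockCoeff
  rw [finsum_mem_eq_finite_toFinset_sum _ (Set.toFinite (quotDefectSet N B))]
  simp_rw [finsum_mem_eq_finite_toFinset_sum _ (Set.toFinite B)]
  rw [← Finset.mul_sum, Finset.sum_comm]
  have hcard : (Nat.card G : ℂ) = (Nat.card N : ℂ) * (Nat.card (G ⧸ N) : ℂ) := by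
    rw [← Nat.cast_mul, Subgroup.card_eq_card_quotient_mul_card_subgroup N, mul_comm]
  have hN0 : (Nat.card N : ℂ) ≠ 0 := by exact_mod_cast Nat.card_pos.ne'
  have hQ0 : (Nat.card (G ⧸ N) : ℂ) ≠ 0 := by exact_mod_cast Nat.card_pos.ne'
  -- the terms
  have hterm : ∀ χ : Cfsg.IrrCharacter G,
      ∑ u : N, (χ : G → ℂ) 1 * conj ((χ : G → ℂ) (g * (u : G)))
        = (χ : G → ℂ) 1 * conj (∑ u : N, (χ : G → ℂ) (g * (u : G))) := by
    intro χ
    rw [map_sum, Finset.mul_sum]
  have himg : ∀ ψ : Cfsg.IrrCharacter (G ⧸ N),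
      ∑ u : N, (Helper76.irrInfl N ψ : G → ℂ) (g * (u : G))
        = (Nat.card N : ℂ) * (ψ : G ⧸ N → ℂ) (g : G ⧸ N) := by
    intro ψ
    have h1 : ∀ u : N, (Helper76.irrInfl N ψ : G → ℂ) (g * (u : G))
        = (ψ : G ⧸ N → ℂ) (g : G ⧸ N) := by
      intro u
      rw [Helper76.irrInfl_apply]
      rw [QuotientGroup.mk_mul, (QuotientGroup.eq_one_iff (u : G)).mpr u.2, mul_one]
    rw [Finset.sum_congr rfl (fun u _ => h1 u), Finset.sum_const, Finset.card_univ,
      nsmul_eq_mul, Nat.card_eq_fintype_card]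
  have hsub : (Set.toFinite (quotDefectSet N B)).toFinset.image (Helper76.irrInfl N)
      ⊆ (Set.toFinite B).toFinset := by
    intro χ hχ
    rw [Finset.mem_image] at hχ
    obtain ⟨ψ, hψ, rfl⟩ := hχ
    rw [Set.Finite.mem_toFinset] at hψ ⊢
    exact hψ
  rw [← Finset.sum_subset hsub, Finset.sum_image (fun a _ b _ h => quotDefect_irrInfl_injective N h)]
  · rw [hcard, Finset.mul_sum, Finset.mul_sum]
    refine Finset.sum_congr rfl fun ψ _ => ?_
    rw [hterm, himg, map_mul, Complex.conj_natCast]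
    have h1 : (Helper76.irrInfl N ψ : G → ℂ) 1 = (ψ : G ⧸ N → ℂ) 1 := by
      rw [Helper76.irrInfl_apply]; rfl
    rw [h1]
    field_simp
  · intro χ hχ hχ'
    rw [hterm]
    rcases Helper81.irr_sum_mul_normal χ N with h | h
    · rw [h g, map_zero, mul_zero]
    · exfalso
      apply hχ'
      obtain ⟨ψ₀, hψ₀irr, hψ₀⟩ := Helper79.exists_irr_deflation N χ.2 h
      have heq : Helper76.irrInfl N ⟨ψ₀, hψ₀irr⟩ = χ := Subtype.ext (funext hψ₀)
      rw [Finset.mem_image]
      refine ⟨⟨ψ₀, hψ₀irr⟩, ?_, heq⟩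
      rw [Set.Finite.mem_toFinset] at hχ ⊢
      show Helper76.irrInfl N ⟨ψ₀, hψ₀irr⟩ ∈ B
      rw [heq]
      exact hχ

omit [Fintype G] in
theorem quotDefect_card_map [Finite G] (N : Subgroup G) [N.Normal] (P : Subgroup G) (h : N ≤ P) :
    Nat.card P = Nat.card N * Nat.card (P.map (QuotientGroup.mk' N)) := by
  have h1 := QuotientGroup.card_preimage_mk N
    ((P.map (QuotientGroup.mk' N) : Subgroup (G ⧸ N)) : Set (G ⧸ N))
  have h2 : (QuotientGroup.mk ⁻¹' ((P.map (QuotientGroup.mk' N) : Subgroup (G ⧸ N)) : Set (G ⧸ N)))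
      = (P : Set G) := by
    have h3 := Subgroup.comap_map_eq (QuotientGroup.mk' N) P
    rw [QuotientGroup.ker_mk', sup_eq_left.mpr h] at h3
    exact congrArg (fun K : Subgroup G => (K : Set G)) h3
  rw [h2] at h1
  exact h1

/-- **Blocks of the quotient by a normal `p`-subgroup.**  Every block `B` of `G` dominates a block
of `G ⧸ N` whose defect groups are exactly the images of the defect groups of `B`. -/
theorem quotDefect_main {p : ℕ} [Fact p.Prime] {M : Ideal Cfsg.AlgInt}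
    (hM : Cfsg.IsPModular p M) (N : Subgroup G) [N.Normal] [Fintype (G ⧸ N)] (hN : IsPGroup p N)
    {B : Set (Cfsg.IrrCharacter G)} (hB : Cfsg.IsPBlock M B) :
    ∃ Bbar : Set (Cfsg.IrrCharacter (G ⧸ N)), Cfsg.IsPBlock M Bbar ∧
      (∀ χ ∈ Bbar, Helper76.irrInfl N χ ∈ B) ∧
      ∀ Dbar : Subgroup (G ⧸ N), Cfsg.IsDefectGroup p M Bbar Dbar ↔
        ∃ P : Subgroup G, Cfsg.IsDefectGroup p M B P ∧ Dbar = P.map (QuotientGroup.mk' N) := by
  classical
  have := Fintype.ofFinite N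
  have hMm := hM.2.1
  have hp : p.Prime := hM.1
  obtain ⟨y, hy⟩ := Helper77.exists_isDefectClass hMm hB
  have PS : Sylow p (Subgroup.centralizer ({y} : Set G)) := default
  have hDdef : Cfsg.IsDefectGroup p M B ((PS : Subgroup (Subgroup.centralizer ({y} : Set G))).map
      (Subgroup.centralizer ({y} : Set G)).subtype) := ⟨y, hy, PS, rfl⟩
  have hND := normal_pSubgroup_le_defectGroup hM N hN hB hDdef
  have hNC : N ≤ Subgroup.centralizer ({y} : Set G) := hND.trans (Subgroup.map_subtype_le _)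
  have hreg : ¬ p ∣ orderOf y := by
    intro hdvd
    apply hy.2.1
    rw [Helper77.blockCoeff_eq_zero_of_dvd_orderOf hM hB hdvd]
    exact Helper77.memLocalIdeal_zero hMm
  have hsum1 : ∑ u : N, Cfsg.blockCoeff B (y * (u : G)) = Cfsg.blockCoeff B y := by
    rw [Finset.sum_eq_single (1 : N)]
    · simp
    · intro u _ hu
      apply Helper77.blockCoeff_eq_zero_of_dvd_orderOf hM hB
      obtain ⟨k₀, hk₀⟩ := hN u
      obtain ⟨k, -, hk⟩ := (Nat.dvd_prime_pow hp).mp (orderOf_dvd_of_pow_eq_one hk₀)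
      have hk' : orderOf (u : G) = p ^ k := by rw [← hk, Subgroup.orderOf_coe]
      have hu1 : (u : G) ≠ 1 := fun h => hu (Subtype.ext h)
      have hcomm : y * (u : G) = (u : G) * y :=
        (Subgroup.mem_centralizer_iff.mp (hNC u.2) y rfl)
      exact Helper81.dvd_orderOf_mul_of_commute hcomm hreg hk' hu1
    · intro h; exact absurd (Finset.mem_univ _) h
  have hU : ¬ Cfsg.MemLocalIdeal M (Cfsg.blockCoeff (quotDefectSet N B) (y : G ⧸ N)) := by
    rw [← quotDefect_sum_coset, hsum1]; exact hy.2.1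
  have hclosed : ∀ ψ ψ' : Cfsg.IrrCharacter (G ⧸ N), ψ ∈ quotDefectSet N B →
      Cfsg.SameBlock M (ψ : G ⧸ N → ℂ) (ψ' : G ⧸ N → ℂ) → ψ' ∈ quotDefectSet N B := by
    intro ψ ψ' hψ h
    have h1 := Helper81.sameBlock_comp_mk hM N h
    show Helper76.irrInfl N ψ' ∈ B
    have hψ' : Helper76.irrInfl N ψ ∈ B := hψ
    rw [eq_blockOf_of_mem hMm hB hψ']
    exact h1
  obtain ⟨ψ, hψU, hψ⟩ := fong_exists_block_of_closed hMm hclosed (y : G ⧸ N) hU
  have hBbar : Cfsg.IsPBlock M (Cfsg.blockOf M (ψ : G ⧸ N → ℂ)) := ⟨ψ, rfl⟩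
  have hsub : ∀ χ ∈ Cfsg.blockOf M (ψ : G ⧸ N → ℂ), Helper76.irrInfl N χ ∈ B :=
    fun χ hχ => hclosed ψ χ hψU hχ
  have hψmem : ψ ∈ Cfsg.blockOf M (ψ : G ⧸ N → ℂ) := sameBlock_refl hMm _
  -- cardinalities
  have hdef := Helper77.factorization_centralizer_le_blockDefect hM hBbar hψ
  obtain ⟨χ₀, hχ₀⟩ := Helper77.block_nonempty hMm hB
  have hd1 := Helper77.factorization_centralizer_le_blockDefect hM hB hy.2.1
  have hd2 := Helper77.blockDefect_le_factorization_centralizer hM hB ⟨χ₀, hχ₀, hy.2.2 χ₀ hχ₀⟩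
  obtain ⟨a, ha⟩ := hN.exists_card_eq
  have hC := quotDefect_card_map N (Subgroup.centralizer ({y} : Set G)) hNC
  have hCle : (Subgroup.centralizer ({y} : Set G)).map (QuotientGroup.mk' N)
      ≤ Subgroup.centralizer ({(y : G ⧸ N)} : Set (G ⧸ N)) :=
    Subgroup.map_le_iff_le_comap.mpr (Helper76.centralizer_le_comap_centralizer_mk N y)
  have hdvd := Subgroup.card_dvd_of_le hCle
  have hfac : (Nat.card (Subgroup.centralizer ({y} : Set G))).factorization p
      ≤ a + (Nat.card (Subgroup.centralizer ({(y : G ⧸ N)} : Set (G ⧸ N)))).factorization p := by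
    rw [hC, Nat.factorization_mul Nat.card_pos.ne' Nat.card_pos.ne', ha]
    simp only [Finsupp.add_apply]
    rw [Nat.Prime.factorization_pow hp]
    simp only [Finsupp.single_eq_same]
    exact Nat.add_le_add_left
      ((Nat.factorization_le_iff_dvd Nat.card_pos.ne' Nat.card_pos.ne').mpr hdvd p) a
  have key : ∀ P : Subgroup G, Cfsg.IsDefectGroup p M B P → ∀ Dbar : Subgroup (G ⧸ N),
      Cfsg.IsDefectGroup p M (Cfsg.blockOf M (ψ : G ⧸ N → ℂ)) Dbar →
      Nat.card (P.map (QuotientGroup.mk' N)) ≤ Nat.card Dbar := by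
    intro P hP Dbar hDbar
    have h1 := Helper77.card_of_isDefectGroup hM hB hP
    have h2 := Helper77.card_of_isDefectGroup hM hBbar hDbar
    have h3 := quotDefect_card_map N P (normal_pSubgroup_le_defectGroup hM N hN hB hP)
    rw [h1, ha] at h3
    rw [h2]
    have h4 : p ^ Cfsg.blockDefect p B ≤ p ^ a * p ^ Cfsg.blockDefect p (Cfsg.blockOf M (ψ : G ⧸ N → ℂ)) := by
      rw [← pow_add]
      exact Nat.pow_le_pow_right hp.pos (by omega)
    rw [h3] at h4
    exact Nat.le_of_mul_le_mul_left h4 (pow_pos hp.pos a)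
  have hforward : ∀ Dbar : Subgroup (G ⧸ N),
      Cfsg.IsDefectGroup p M (Cfsg.blockOf M (ψ : G ⧸ N → ℂ)) Dbar →
      ∃ P : Subgroup G, Cfsg.IsDefectGroup p M B P ∧ Dbar = P.map (QuotientGroup.mk' N) := by
    intro Dbar hDbar
    obtain ⟨P, hP, hle⟩ := Helper76.exists_isDefectGroup_map_ge hM N hBbar hB ψ hψmem hψU hDbar
    exact ⟨P, hP, Subgroup.eq_of_le_of_card_ge hle (key P hP Dbar hDbar)⟩
  refine ⟨Cfsg.blockOf M (ψ : G ⧸ N → ℂ), hBbar, hsub, fun Dbar => ⟨hforward Dbar, ?_⟩⟩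
  rintro ⟨P, hP, rfl⟩
  obtain ⟨D₁, hD₁⟩ := exists_isDefectGroup (p := p) hMm hBbar
  obtain ⟨P₁, hP₁, rfl⟩ := hforward D₁ hD₁
  obtain ⟨x, hx⟩ := isDefectGroup_conjLE hM hB hP₁ hP
  have hconj := isDefectGroup_conj hD₁ (x : G ⧸ N)
  have hle : (P₁.map (QuotientGroup.mk' N)).map (MulAut.conj (x : G ⧸ N)).toMonoidHom
      ≤ P.map (QuotientGroup.mk' N) := by
    rintro _ ⟨_, ⟨q, hq, rfl⟩, rfl⟩
    refine ⟨x * q * x⁻¹, hx q hq, ?_⟩
    simp
  have hcard : Nat.card (P.map (QuotientGroup.mk' N))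
      ≤ Nat.card ((P₁.map (QuotientGroup.mk' N)).map (MulAut.conj (x : G ⧸ N)).toMonoidHom) :=
    key P hP _ hconj
  rw [← Subgroup.eq_of_le_of_card_ge hle hcard]
  exact hconj

end quotDefect

end Cfsg.Agent.Helper16
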