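import Mathlib.RepresentationTheory.Character
import Mathlib.RepresentationTheory.Irreducible
import Mathlib.Analysis.Complex.Basic
import Mathlib.Analysis.Complex.Polynomial.Basic
import Cfsg.Prelude.Def_Characters

set_option autoImplicit false

namespace Cfsg.Agent.Helper16

/-- Schur's lemma: an endomorphism commuting with an irreducible complex representation is a
scalar. -/
theorem schur_scalar {G V : Type*} [Group G] [AddCommGroup V] [Module ℂ V]
    [FiniteDimensional ℂ V] (ρ : Representation ℂ G V) (hρ : ρ.IsIrreducible)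
    (A : V →ₗ[ℂ] V) (hA : ∀ g : G, A * ρ g = ρ g * A) :
    ∃ c : ℂ, A = c • LinearMap.id := by
  haveI := hρ
  obtain ⟨c, hc⟩ :=
    (Representation.IsIrreducible.algebraMap_intertwiningMap_bijective_of_isAlgClosed
      (ρ := ρ)).2 (⟨A, hA⟩ : Representation.IntertwiningMap ρ ρ)
  refine ⟨c, ?_⟩
  have h := congrArg (fun f : Representation.IntertwiningMap ρ ρ => f.toLinearMap) hc
  simp only [Representation.IntertwiningMap.algebraMap_apply] at h
  rw [← h]
  rfl

/-- The class sum of `u` acts as a scalar `c` in an irreducible representation, and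
`c * χ(1) = |G| * χ(u)`. -/
theorem sum_conj_rep {G V : Type*} [Group G] [Fintype G] [AddCommGroup V] [Module ℂ V]
    [FiniteDimensional ℂ V] (ρ : Representation ℂ G V) (hρ : ρ.IsIrreducible) (u : G) :
    ∃ c : ℂ, (∑ x : G, ρ (x * u * x⁻¹) = c • LinearMap.id) ∧
      c * ρ.character 1 = (Nat.card G : ℂ) * ρ.character u := by
  have hA : ∀ g : G, (∑ x : G, ρ (x * u * x⁻¹)) * ρ g = ρ g * (∑ x : G, ρ (x * u * x⁻¹)) := by
    intro g
    rw [Finset.sum_mul, Finset.mul_sum]
    rw [← Equiv.sum_comp (Equiv.mulLeft g)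
      (fun x : G => (ρ (x * u * x⁻¹)) * ρ g)]
    refine Finset.sum_congr rfl ?_
    intro x _
    simp only [Equiv.coe_mulLeft]
    rw [← map_mul, ← map_mul]
    congr 1
    group
  obtain ⟨c, hc⟩ := schur_scalar ρ hρ _ hA
  refine ⟨c, hc, ?_⟩
  have h1 := congrArg (LinearMap.trace ℂ V) hc
  rw [map_sum, map_smul] at h1
  have h2 : ∀ x : G, LinearMap.trace ℂ V (ρ (x * u * x⁻¹)) = ρ.character u := by
    intro x
    exact Representation.char_conj ρ u x
  rw [Finset.sum_congr rfl (fun x _ => h2 x), Finset.sum_const, Finset.card_univ] at h1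
  have h3 : LinearMap.trace ℂ V (LinearMap.id) = ρ.character 1 := by
    unfold Representation.character
    rw [map_one]
    rfl
  rw [h3] at h1
  rw [Nat.card_eq_fintype_card]
  simp only [nsmul_eq_mul, smul_eq_mul] at h1
  exact h1.symm

end Cfsg.Agent.Helper16
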