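import Cfsg.Agent.Helper79.FongBlock3
import Cfsg.Agent.Helper76.Cover2
import Cfsg.Agent.Helper16.BrauerCorr
import Cfsg.Agent.Helper16.DefectGroup
import Cfsg.Agent.Helper77.Defect

/-!
# Counting the blocks of a group with a normal Sylow `p`-subgroup

* `sylowCount_omega_eq`: on class functions supported on a normal `p'`-subgroup, the central
  characters of two characters in the same block agree exactly.
* `sylowCount_card_le`: the number of conjugacy classes contained in a normal `p'`-subgroup is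
  at most the number of blocks.
* `sylowCount_exists_core`: if `P` is a normal Sylow `p`-subgroup, the `p`-regular elements of
  `C(P)` lie in a normal `p'`-subgroup.
* `sylowCount_isDefectGroup`: if `P` is a normal Sylow `p`-subgroup, it is a defect group of
  every block.
* `sylowCount_mem_centralizer`: if `P` is a normal Sylow `p`-subgroup and the order of `C(g)`
  is divisible by `|P|`, then `g` centralizes `P`.
-/

set_option autoImplicit false
open Cfsg

namespace Cfsg.Agent.Helper16

universe u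

section sylowCount

variable {X : Type u} [Group X] [Fintype X] {p : ℕ} [Fact p.Prime] {M : Ideal Cfsg.AlgInt}

/-- On class functions supported on a normal `p'`-subgroup, `Ω_χ` is constant on blocks. -/
theorem sylowCount_omega_eq (hM : Cfsg.IsPModular p M) (K : Subgroup X) [hKn : K.Normal]
    (hK : ¬ p ∣ Nat.card K) {f : X → ℂ} (hf : Cfsg.IsClassFunction X f)
    (hsupp : ∀ x : X, x ∉ K → f x = 0) (χ χ' : Cfsg.IrrCharacter X)
    (h : Cfsg.SameBlock M (χ : X → ℂ) (χ' : X → ℂ)) :
    Helper81.omega (χ : X → ℂ) f = Helper81.omega (χ' : X → ℂ) f := by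
  classical
  have hMm := hM.2.1
  have hne : ∀ ψ : Cfsg.IrrCharacter X, (fun n : K => (ψ : X → ℂ) n) ≠ 0 := by
    intro ψ h0
    have h1 := congrFun h0 1
    exact Helper81.irr_one_ne_zero ψ (by simpa using h1)
  obtain ⟨θ, hθ⟩ := Helper15.exists_constituent
    (isClassFunction_res (Helper81.irr_isClassFunction χ) K) (hne χ)
  obtain ⟨ψ, hψ⟩ := Helper15.exists_constituent
    (isClassFunction_res (Helper81.irr_isClassFunction χ') K) (hne χ')
  rw [Helper76.omega_eq_omega_res_of_constituent K hf hsupp χ θ hθ,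
    Helper76.omega_eq_omega_res_of_constituent K hf hsupp χ' ψ hψ]
  have hb : Cfsg.IsPBlock M (Cfsg.blockOf M (θ : K → ℂ)) := ⟨θ, rfl⟩
  obtain ⟨g, θ', hθ', rfl⟩ := Helper76.mem_blockOrbit_of_sameBlock hMm K hb χ χ' h θ
    (sameBlock_refl hMm _) hθ ψ hψ
  have e1 : θ = θ' := Helper79.eq_of_sameBlock_of_not_dvd_card hM hK θ θ' hθ'
  subst e1
  unfold Helper81.omega
  have hfσ : ∀ n : K, f ((MulAut.conjNormal g n : K) : X) = f n := by
    intro n
    rw [MulAut.conjNormal_apply]
    exact hf n g
  have h1 : (Helper81.irrTwist (MulAut.conjNormal g) θ : K → ℂ) 1 = (θ : K → ℂ) 1 := by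
    rw [Helper81.irrTwist_apply, map_one]
  rw [h1]
  congr 1
  rw [← Equiv.sum_comp (MulAut.conjNormal g : K ≃* K).toEquiv
    (fun n : K => f n * (θ : K → ℂ) n)]
  refine Finset.sum_congr rfl fun n _ => ?_
  rw [Helper81.irrTwist_apply]
  show f ((MulAut.conjNormal g n : K) : X) * (θ : K → ℂ) (MulAut.conjNormal g n)
    = f n * (θ : K → ℂ) (MulAut.conjNormal g n)
  rw [hfσ n]

/-- The number of conjugacy classes contained in a normal `p'`-subgroup is at most the number of
blocks. -/
theorem sylowCount_card_le (hM : Cfsg.IsPModular p M) (K : Subgroup X) [K.Normal]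
    (hK : ¬ p ∣ Nat.card K) (S : Set (ConjClasses X))
    (hS : ∀ C ∈ S, ∀ x : X, ConjClasses.mk x = C → x ∈ K) :
    Nat.card S ≤ Nat.card {B : Set (Cfsg.IrrCharacter X) // Cfsg.IsPBlock M B} := by
  classical
  have hMm := hM.2.1
  have : Fintype (Cfsg.IrrCharacter X) := Fintype.ofFinite _
  have : Fintype {B : Set (Cfsg.IrrCharacter X) // Cfsg.IsPBlock M B} := Fintype.ofFinite _
  have : Fintype S := Fintype.ofFinite _
  let rep : {B : Set (Cfsg.IrrCharacter X) // Cfsg.IsPBlock M B} → Cfsg.IrrCharacter X :=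
    fun B => Classical.choose B.2
  have hrep : ∀ B : {B : Set (Cfsg.IrrCharacter X) // Cfsg.IsPBlock M B},
      B.1 = Cfsg.blockOf M (rep B : X → ℂ) := fun B => Classical.choose_spec B.2
  let Φ : (X → ℂ) →ₗ[ℂ] ({B : Set (Cfsg.IrrCharacter X) // Cfsg.IsPBlock M B} → ℂ) :=
    { toFun := fun f B => Helper81.omega (rep B : X → ℂ) f
      map_add' := by
        intro f g
        funext B
        simp only [Helper81.omega, Pi.add_apply, add_mul, Finset.sum_add_distrib, add_div]
      map_smul' := by
        intro c f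
        funext B
        simp only [Helper81.omega, Pi.smul_apply, smul_eq_mul, RingHom.id_apply, mul_assoc,
          ← Finset.mul_sum, mul_div_assoc] }
  let v : S → (X → ℂ) := fun C x => if ConjClasses.mk x = C.1 then 1 else 0
  have hv : LinearIndependent ℂ v := by
    rw [linearIndependent_iff']
    intro s c hsum C hC
    obtain ⟨x, hx⟩ := ConjClasses.exists_rep C.1
    have h1 := congrFun hsum x
    rw [Finset.sum_apply] at h1
    simp only [Pi.smul_apply, smul_eq_mul, v, Pi.zero_apply] at h1
    rw [Finset.sum_eq_single C] at h1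
    · rw [if_pos hx, mul_one] at h1
      exact h1
    · intro C' _ hne
      rw [if_neg, mul_zero]
      intro h2
      exact hne (Subtype.ext (h2.symm.trans hx))
    · intro h
      exact absurd hC h
  have hcl : ∀ f ∈ Submodule.span ℂ (Set.range v),
      Cfsg.IsClassFunction X f ∧ ∀ x : X, x ∉ K → f x = 0 := by
    intro f hf
    induction hf using Submodule.span_induction with
    | mem f hf =>
      obtain ⟨C, rfl⟩ := hf
      constructor
      · intro g h
        show (if ConjClasses.mk (h * g * h⁻¹) = C.1 then (1 : ℂ) else 0)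
          = if ConjClasses.mk g = C.1 then 1 else 0
        have : ConjClasses.mk (h * g * h⁻¹) = ConjClasses.mk g :=
          ConjClasses.mk_eq_mk_iff_isConj.mpr (isConj_iff.mpr ⟨h⁻¹, by group⟩)
        rw [this]
      · intro x hx
        show (if ConjClasses.mk x = C.1 then (1 : ℂ) else 0) = 0
        rw [if_neg]
        intro h
        exact hx (hS C.1 C.2 x h)
    | zero =>
      exact ⟨fun _ _ => rfl, fun _ _ => rfl⟩
    | add f g _ _ hf hg =>
      constructor
      · intro a h
        show f (h * a * h⁻¹) + g (h * a * h⁻¹) = f a + g a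
        rw [hf.1 a h, hg.1 a h]
      · intro x hx
        show f x + g x = 0
        rw [hf.2 x hx, hg.2 x hx, add_zero]
    | smul c f _ hf =>
      constructor
      · intro a h
        show c • f (h * a * h⁻¹) = c • f a
        rw [hf.1 a h]
      · intro x hx
        show c • f x = 0
        rw [hf.2 x hx, smul_zero]
  have hdisj : Disjoint (Submodule.span ℂ (Set.range v)) (LinearMap.ker Φ) := by
    rw [Submodule.disjoint_def]
    intro f hf1 hf2
    obtain ⟨hfc, hfs⟩ := hcl f hf1
    have h0 : Cfsg.IsClassFunction X (0 : X → ℂ) := fun _ _ => rfl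
    apply Helper77.eq_of_omega_eq hfc h0
    intro ψ
    have hψ : Cfsg.IsPBlock M (Cfsg.blockOf M (ψ : X → ℂ)) := ⟨ψ, rfl⟩
    have h1 : Cfsg.SameBlock M (rep ⟨_, hψ⟩ : X → ℂ) (ψ : X → ℂ) := by
      have h2 : ψ ∈ Cfsg.blockOf M (ψ : X → ℂ) := sameBlock_refl hMm _
      have h3 := hrep ⟨_, hψ⟩
      rw [show (⟨_, hψ⟩ : {B : Set (Cfsg.IrrCharacter X) // Cfsg.IsPBlock M B}).1
        = Cfsg.blockOf M (ψ : X → ℂ) from rfl] at h3
      rw [h3] at h2
      exact h2
    rw [← sylowCount_omega_eq hM K hK hfc hfs _ _ h1]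
    have h4 : Φ f = 0 := hf2
    have h5 := congrFun h4 ⟨_, hψ⟩
    have h6 : Helper81.omega (ψ : X → ℂ) (0 : X → ℂ) = 0 := by
      simp [Helper81.omega]
    rw [h6]
    exact h5
  have hlin := hv.map hdisj
  have hcard := hlin.fintype_card_le_finrank
  rw [Module.finrank_fintype_fun_eq_card] at hcard
  rw [Nat.card_eq_fintype_card, Nat.card_eq_fintype_card]
  exact hcard

end sylowCount

section sylowCountGroup

variable {X : Type u} [Group X] [Finite X] {p : ℕ} [Fact p.Prime]

/-- Every `p`-subgroup lies in a normal Sylow `p`-subgroup. -/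
theorem sylowCount_le_of_normal (P' : Subgroup X) [P'.Normal] (hP' : IsPGroup p P')
    (hidx : ¬ p ∣ P'.index) {Q : Subgroup X} (hQ : IsPGroup p Q) : Q ≤ P' := by
  obtain ⟨S', hS'⟩ := hQ.exists_le_sylow
  have hS : ((hP'.toSylow hidx : Sylow p X) : Subgroup X) = P' := rfl
  obtain ⟨g, hg⟩ := MulAction.exists_smul_eq X (hP'.toSylow hidx : Sylow p X) S'
  have hn : ((hP'.toSylow hidx : Sylow p X) : Subgroup X).Normal := by
    rw [hS]; infer_instance
  rw [Sylow.smul_eq_of_normal] at hg
  rw [← hg, hS] at hS'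
  exact hS'

/-- If `P'` is a normal Sylow `p`-subgroup, the `p`-regular elements of `C(P')` lie in a normal
`p'`-subgroup. -/
theorem sylowCount_exists_core (P' : Subgroup X) [hPn : P'.Normal] (hP' : IsPGroup p P')
    (hidx : ¬ p ∣ P'.index) :
    ∃ K : Subgroup X, K.Normal ∧ ¬ p ∣ Nat.card K ∧
      ∀ x : X, x ∈ Subgroup.centralizer (P' : Set X) → ¬ p ∣ orderOf x → x ∈ K := by
  classical
  have hp : p.Prime := Fact.out
  set C : Subgroup X := Subgroup.centralizer (P' : Set X) with hC
  have hCn : ∀ (c : X), c ∈ C → ∀ g : X, g * c * g⁻¹ ∈ C := by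
    intro c hc g
    rw [hC, Subgroup.mem_centralizer_iff] at hc ⊢
    intro y hy
    have h1 : g⁻¹ * y * g ∈ P' := by
      have := hPn.conj_mem y hy g⁻¹
      rwa [inv_inv] at this
    have h2 := hc _ h1
    calc y * (g * c * g⁻¹) = g * ((g⁻¹ * y * g) * c) * g⁻¹ := by group
      _ = g * (c * (g⁻¹ * y * g)) * g⁻¹ := by rw [h2]
      _ = g * c * g⁻¹ * y := by group
  set S : Subgroup C := P'.subgroupOf C with hS
  have hSp : IsPGroup p S := hP'.comap_subtype
  have hSidx : ¬ p ∣ S.index := by
    intro h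
    apply hidx
    exact h.trans (Subgroup.relIndex_dvd_index_of_normal P' C)
  have hcop : Nat.Coprime (Nat.card S) S.index := by
    obtain ⟨k, hk⟩ := IsPGroup.iff_card.mp hSp
    rw [hk]
    exact Nat.Coprime.pow_left _ ((Nat.Prime.coprime_iff_not_dvd hp).mpr hSidx)
  obtain ⟨K₀, hK₀⟩ := Subgroup.exists_right_complement'_of_coprime hcop
  have hK₀card : ¬ p ∣ Nat.card K₀ := by
    rw [← hK₀.symm.index_eq_card]
    exact hSidx
  -- the `p`-regular elements of `C` are the elements of `K₀`
  have hreg : ∀ c : C, ¬ p ∣ orderOf c → c ∈ K₀ := by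
    intro c hc
    obtain ⟨⟨s, k⟩, hsk⟩ := hK₀.2 c
    have hsk' : (s : C) * (k : C) = c := hsk
    have hcomm : Commute (s : C) (k : C) := by
      have h1 : ((s : C) : X) ∈ P' := s.2
      have h2 := Subgroup.mem_centralizer_iff.mp (k : C).2 _ h1
      exact Subtype.ext h2
    obtain ⟨n, hn⟩ := (IsPGroup.iff_orderOf.mp hSp) s
    have hs_ord : orderOf (s : C) = p ^ n := by
      rw [Subgroup.orderOf_coe]; exact hn
    have hk_ord : orderOf (k : C) ∣ Nat.card K₀ := by
      rw [Subgroup.orderOf_coe]; exact orderOf_dvd_natCard k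
    have hcop2 : Nat.Coprime (orderOf (s : C)) (orderOf (k : C)) := by
      rw [hs_ord]
      apply Nat.Coprime.pow_left
      rw [Nat.Prime.coprime_iff_not_dvd hp]
      intro h
      exact hK₀card (h.trans hk_ord)
    have hord := hcomm.orderOf_mul_eq_mul_orderOf_of_coprime hcop2
    rw [hsk'] at hord
    have hn0 : n = 0 := by
      by_contra hn0
      apply hc
      rw [hord, hs_ord]
      exact Dvd.dvd.mul_right (dvd_pow_self p hn0) _
    rw [hn0, pow_zero, orderOf_eq_one_iff] at hs_ord
    rw [hs_ord, one_mul] at hsk'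
    rw [← hsk']
    exact k.2
  refine ⟨K₀.map C.subtype, ⟨?_⟩, ?_, ?_⟩
  · rintro x ⟨k, hk, rfl⟩ g
    have hmem : g * (k : X) * g⁻¹ ∈ C := hCn _ k.2 g
    refine ⟨⟨_, hmem⟩, ?_, rfl⟩
    apply hreg
    have h1 : orderOf (⟨g * (k : X) * g⁻¹, hmem⟩ : C) = orderOf k := by
      rw [← Subgroup.orderOf_coe (⟨g * (k : X) * g⁻¹, hmem⟩ : C), ← Subgroup.orderOf_coe k]
      exact (MulAut.conj g).orderOf_eq (k : X)
    rw [h1]
    intro h
    apply hK₀card
    have h2 : orderOf k ∣ Nat.card K₀ := by
      have h3 := orderOf_dvd_natCard (⟨k, hk⟩ : K₀)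
      rwa [Subgroup.orderOf_mk] at h3
    exact h.trans h2
  · rw [Subgroup.card_map_of_injective (Subgroup.subtype_injective _)]
    exact hK₀card
  · intro x hx hreg'
    refine ⟨⟨x, hx⟩, ?_, rfl⟩
    apply hreg
    rw [← Subgroup.orderOf_coe]
    exact hreg'

/-- If `P'` is a normal Sylow `p`-subgroup and the order of `C(g)` is divisible by `|P'|`, then
`g` centralizes `P'`. -/
theorem sylowCount_mem_centralizer (P' : Subgroup X) [P'.Normal] (hP' : IsPGroup p P')
    (hidx : ¬ p ∣ P'.index) (g : X)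
    (hg : Nat.card P' ∣ Nat.card (Subgroup.centralizer ({g} : Set X))) :
    g ∈ Subgroup.centralizer (P' : Set X) := by
  classical
  obtain ⟨a, ha⟩ := IsPGroup.iff_card.mp hP'
  rw [ha] at hg
  obtain ⟨Q, hQ⟩ := Sylow.exists_subgroup_card_pow_prime p hg
  have hQ' : Nat.card (Q.map (Subgroup.centralizer ({g} : Set X)).subtype) = p ^ a := by
    rw [Subgroup.card_map_of_injective (Subgroup.subtype_injective _)]
    exact hQ
  have hle := sylowCount_le_of_normal P' hP' hidx (IsPGroup.of_card hQ')
  have heq : Q.map (Subgroup.centralizer ({g} : Set X)).subtype = P' :=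
    Subgroup.eq_of_le_of_card_ge hle (by rw [hQ', ha])
  rw [Subgroup.mem_centralizer_iff]
  intro y hy
  rw [← heq] at hy
  obtain ⟨q, -, rfl⟩ := hy
  have := Subgroup.mem_centralizer_iff.mp q.2 g rfl
  exact this.symm

end sylowCountGroup

section sylowCountBlock

variable {X : Type u} [Group X] [Fintype X] {p : ℕ} [Fact p.Prime] {M : Ideal Cfsg.AlgInt}

/-- A normal Sylow `p`-subgroup is a defect group of every block, and every block has full
defect. -/
theorem sylowCount_isDefectGroup (hM : Cfsg.IsPModular p M) (P' : Subgroup X) [P'.Normal]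
    (hP' : IsPGroup p P') (hidx : ¬ p ∣ P'.index) {b : Set (Cfsg.IrrCharacter X)}
    (hb : Cfsg.IsPBlock M b) :
    Cfsg.IsDefectGroup p M b P' ∧ Nat.card P' = p ^ Cfsg.blockDefect p b := by
  classical
  obtain ⟨D, hD⟩ := exists_isDefectGroup (p := p) hM.2.1 hb
  have h1 := normal_pSubgroup_le_defectGroup hM P' hP' hb hD
  obtain ⟨-, -, -, -, hDp⟩ := isDefectGroup_exists_data hD
  have h2 := sylowCount_le_of_normal P' hP' hidx hDp
  have h3 : D = P' := le_antisymm h2 h1
  rw [h3] at hD
  exact ⟨hD, Helper77.card_of_isDefectGroup hM hb hD⟩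

end sylowCountBlock

end Cfsg.Agent.Helper16
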